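import Cfsg.Agent.TwoGroups.UniqueInvolution
import Cfsg.Agent.Invol.IndexTwo
import Cfsg.Prelude.Def_ClassificationStages

/-!
# 2-groups with one involution: elements of order four; Sylow 2-subgroups of perfect groups
-/

set_option autoImplicit false

open Cfsg Subgroup

namespace Cfsg.Agent.Intrinsic

variable {G : Type*} [Group G] [Finite G]

theorem exists_fixed_order_four {Q T : Subgroup G} (hT : IsPGroup 2 T) (hQT : Q ≤ T)
    (hN : T ≤ normalizer (Q : Set G)) {z : G} (hzQ : z ∈ Q) (hz : orderOf z = 2)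
    (huniq : ∀ u ∈ Q, orderOf u = 2 → u = z) (hnc : ¬ IsCyclic Q) :
    ∃ a ∈ Q, a ^ 2 = z ∧ ∀ x ∈ T, x⁻¹ * a * x = a ∨ x⁻¹ * a * x = a⁻¹ := by
  set zT : ↥T := ⟨z, hQT hzQ⟩ with hzT
  set Q' : Subgroup ↥T := Q.subgroupOf T with hQ'
  have : Q'.Normal := normal_subgroupOf_of_le_normalizer hN
  have hzc : zT ∈ center ↥T := by
    refine mem_center_iff.mpr fun g => Subtype.ext ?_
    have h1 : (g : G) * z * (g : G)⁻¹ ∈ Q := (mem_normalizer_iff.mp (hN g.2) z).mp hzQ
    have h2 : (g : G) * z * (g : G)⁻¹ = z := huniq _ h1 (by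
      rw [show (g : G) * z * (g : G)⁻¹ = MulAut.conj (g : G) z from rfl, MulEquiv.orderOf_eq]
      exact hz)
    simpa using mul_inv_eq_iff_eq_mul.mp h2
  have : (zpowers zT).Normal := ⟨fun n hn g => by
    have hnc' : n ∈ center ↥T := zpowers_le.mpr hzc hn
    rw [mem_center_iff.mp hnc' g, mul_assoc, mul_inv_cancel, mul_one]
    exact hn⟩
  set π := QuotientGroup.mk' (zpowers zT)
  have : (Q'.map π).Normal := Subgroup.Normal.map inferInstance π (QuotientGroup.mk'_surjective _)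
  have hne : Q'.map π ≠ ⊥ := by
    intro h
    apply hnc
    have hle : Q ≤ zpowers z := by
      intro q hq
      have h1 : π ⟨q, hQT hq⟩ ∈ Q'.map π := mem_map_of_mem π (mem_subgroupOf.mpr hq)
      rw [h, mem_bot, QuotientGroup.mk'_apply, QuotientGroup.eq_one_iff, mem_zpowers_iff] at h1
      obtain ⟨k, hk⟩ := h1
      refine mem_zpowers_iff.mpr ⟨k, ?_⟩
      simpa [zT] using congrArg Subtype.val hk
    rw [show Q = zpowers z from le_antisymm hle (zpowers_le.mpr hzQ)]
    infer_instance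
  have hTq : IsPGroup 2 (↥T ⧸ zpowers zT) := hT.to_quotient _
  obtain ⟨c, hcQ, hcC, hc2⟩ :=
    TwoGroups.exists_central_involution_of_normal hTq (Q'.map π) hne
  obtain ⟨a, haQ, rfl⟩ := mem_map.mp hcQ
  have haQ' : (a : G) ∈ Q := mem_subgroupOf.mp haQ
  have hpow : ∀ k : ℤ, z ^ k = 1 ∨ z ^ k = z := by
    intro k
    have hz2 : z * z = 1 := by rw [← pow_two, ← hz]; exact pow_orderOf_eq_one z
    rcases Int.even_or_odd k with ⟨j, rfl⟩ | ⟨j, rfl⟩
    · left
      rw [← two_mul, zpow_mul, zpow_two, hz2, one_zpow]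
    · right
      rw [zpow_add, zpow_mul, zpow_two, hz2, one_zpow, one_mul, zpow_one]
  have hsq : (a : G) ^ 2 = z := by
    have h1 : π (a ^ 2) = 1 := by rw [map_pow, ← hc2]; exact pow_orderOf_eq_one _
    rw [QuotientGroup.mk'_apply, QuotientGroup.eq_one_iff, mem_zpowers_iff] at h1
    obtain ⟨k, hk⟩ := h1
    have hk' : z ^ k = (a : G) ^ 2 := by simpa [zT] using congrArg Subtype.val hk
    rcases hpow k with h | h
    · exfalso
      have ha1 : (a : G) ^ 2 = 1 := by rw [← hk', h]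
      have hane : π a ≠ 1 := fun e => by rw [e, orderOf_one] at hc2; norm_num at hc2
      rcases eq_or_ne (a : G) 1 with e | e
      · exact hane (by rw [show a = 1 from Subtype.ext e, map_one])
      · have := huniq _ haQ' (orderOf_eq_prime ha1 e)
        exact hane (by
          rw [QuotientGroup.mk'_apply, QuotientGroup.eq_one_iff, show a = zT from Subtype.ext this]
          exact mem_zpowers _)
    · rw [← hk', h]
  refine ⟨a, haQ', hsq, fun x hx => ?_⟩
  have h1 : π (a⁻¹ * (⟨x, hx⟩⁻¹ * a * ⟨x, hx⟩)) = 1 := by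
    have hc := mem_center_iff.mp hcC (π ⟨x, hx⟩)
    rw [map_mul, map_mul, map_mul, map_inv, map_inv, mul_assoc (π ⟨x, hx⟩)⁻¹, ← hc,
      inv_mul_cancel_left, inv_mul_cancel]
  rw [QuotientGroup.mk'_apply, QuotientGroup.eq_one_iff, mem_zpowers_iff] at h1
  obtain ⟨k, hk⟩ := h1
  have hk' : z ^ k = (a : G)⁻¹ * (x⁻¹ * a * x) := by simpa [zT] using congrArg Subtype.val hk
  have hk2 : x⁻¹ * (a : G) * x = a * z ^ k := by rw [hk', mul_inv_cancel_left]
  rcases hpow k with h | h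
  · left; rw [hk2, h, mul_one]
  · right
    rw [hk2, h]
    refine eq_inv_of_mul_eq_one_left ?_
    calc (a : G) * z * a = (a : G) * (a : G) ^ 2 * a := by rw [hsq]
      _ = ((a : G) ^ 2) ^ 2 := by simp [pow_two, mul_assoc]
      _ = 1 := by rw [hsq, ← hz]; exact pow_orderOf_eq_one z

theorem exists_inverting {Q : Subgroup G} (hQ : IsPGroup 2 Q) {z : G} (hzQ : z ∈ Q)
    (hz : orderOf z = 2) (huniq : ∀ u ∈ Q, orderOf u = 2 → u = z) (hnc : ¬ IsCyclic Q) {a : G}
    (ha : a ∈ Q) (ha2 : a ^ 2 = z) : ∃ b ∈ Q, b ^ 2 = z ∧ b⁻¹ * a * b = a⁻¹ := by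
  have huq : ∀ x y : ↥Q, orderOf x = 2 → orderOf y = 2 → x = y := fun x y hx hy =>
    Subtype.ext ((huniq _ x.2 (by rw [orderOf_coe]; exact hx)).trans
      (huniq _ y.2 (by rw [orderOf_coe]; exact hy)).symm)
  rcases TwoGroups.cyclic_or_quaternion_of_unique_involution hQ huq with h | ⟨n, hn, -, ⟨e⟩⟩
  · exact absurd h hnc
  obtain ⟨m, hm⟩ : ∃ m : ℕ, 2 ^ (n - 1) = 2 * m :=
    ⟨2 ^ (n - 2), by rw [← pow_succ']; congr 1; omega⟩
  have hm0 : 0 < m := by
    rcases Nat.eq_zero_or_pos m with h | h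
    · rw [h, mul_zero] at hm; exact absurd hm (by positivity)
    · exact h
  have : NeZero (2 ^ (n - 1)) := ⟨by positivity⟩
  -- it suffices to find an inverting element of order four
  suffices h : ∀ g : QuaternionGroup (2 ^ (n - 1)),
      ∃ b, b⁻¹ * g * b = g⁻¹ ∧ b ^ 2 ≠ 1 ∧ (b ^ 2) ^ 2 = 1 by
    obtain ⟨b, hb, hb2, hb4⟩ := h (e ⟨a, ha⟩)
    have hne : (e.symm b) ^ 2 ≠ 1 := fun h => hb2 (by
      simpa using congrArg e h)
    have ho : orderOf ((e.symm b) ^ 2) = 2 := orderOf_eq_prime (by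
      rw [← map_pow, ← map_pow, hb4, map_one]) hne
    refine ⟨(e.symm b : ↥Q), (e.symm b).2, ?_, ?_⟩
    · rw [← SubmonoidClass.coe_pow]
      exact huniq _ ((e.symm b) ^ 2).2 (by rw [orderOf_coe]; exact ho)
    · have h1 : (e.symm b)⁻¹ * ⟨a, ha⟩ * e.symm b = (⟨a, ha⟩ : ↥Q)⁻¹ :=
        e.injective (by simp [hb])
      simpa using congrArg Subtype.val h1
  have hcast : ((m : ZMod (2 * 2 ^ (n - 1))) + m) = ((2 ^ (n - 1) : ℕ) : ZMod (2 * 2 ^ (n - 1))) := by
    rw [hm]; push_cast; ring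
  have hne : ((2 ^ (n - 1) : ℕ) : ZMod (2 * 2 ^ (n - 1))) ≠ 0 := by
    rw [Ne, ZMod.natCast_eq_zero_iff]
    intro h
    have := Nat.le_of_dvd (by positivity) h
    have : 0 < 2 ^ (n - 1) := by positivity
    omega
  have hdbl : ((2 ^ (n - 1) : ℕ) : ZMod (2 * 2 ^ (n - 1))) + (2 ^ (n - 1) : ℕ) = 0 := by
    rw [← Nat.cast_add, ← two_mul, ZMod.natCast_self]
  have hinv_a : ∀ i : ZMod (2 * 2 ^ (n - 1)),
      (QuaternionGroup.a i)⁻¹ = QuaternionGroup.a (-i) := fun i => rfl
  have hinv_x : ∀ i : ZMod (2 * 2 ^ (n - 1)),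
      (QuaternionGroup.xa i : QuaternionGroup (2 ^ (n - 1)))⁻¹ =
        QuaternionGroup.xa (((2 ^ (n - 1) : ℕ) : ZMod (2 * 2 ^ (n - 1))) + i) := fun i => rfl
  intro g
  cases g with
  | a i =>
    refine ⟨QuaternionGroup.xa 0, ?_, ?_, ?_⟩
    · rw [hinv_x, hinv_a, QuaternionGroup.xa_mul_a, QuaternionGroup.xa_mul_xa]
      congr 1
      ring
    · rw [pow_two, QuaternionGroup.xa_mul_xa, QuaternionGroup.one_def]
      intro h
      injection h with h
      exact hne (by simpa using h)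
    · rw [pow_two (QuaternionGroup.xa _), QuaternionGroup.xa_mul_xa, pow_two,
        QuaternionGroup.a_mul_a, QuaternionGroup.one_def]
      congr 1
      simpa using hdbl
  | xa i =>
    refine ⟨QuaternionGroup.a (m : ℕ), ?_, ?_, ?_⟩
    · rw [hinv_x, hinv_a, QuaternionGroup.a_mul_xa, QuaternionGroup.xa_mul_a]
      congr 1
      linear_combination hcast
    · rw [pow_two, QuaternionGroup.a_mul_a, hcast, QuaternionGroup.one_def]
      intro h
      injection h with h
      exact hne h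
    · rw [pow_two (QuaternionGroup.a _), QuaternionGroup.a_mul_a, hcast, pow_two,
        QuaternionGroup.a_mul_a, QuaternionGroup.one_def, hdbl]

theorem not_isCyclic_sylow_of_perfect {J : Subgroup G} (hJ : ⁅J, J⁆ = J) (h2 : 2 ∣ Nat.card J)
    (S : Sylow 2 ↥J) : ¬ IsCyclic ↥(S : Subgroup ↥J) := by
  intro hc
  obtain ⟨H, hH⟩ := Invol.exists_index_two_of_cyclic_sylow (even_iff_two_dvd.mpr h2) S hc
  have hperf : commutator ↥J = ⊤ := by
    apply map_injective J.subtype_injective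
    rw [commutator_def, map_commutator, ← MonoidHom.range_eq_map, range_subtype, hJ]
  have : H.Normal := normal_of_index_eq_two hH
  have hle : commutator ↥J ≤ H := by
    have : IsMulCommutative (↥J ⧸ H) := by
      have : Fact (Nat.Prime 2) := ⟨Nat.prime_two⟩
      have := isCyclic_of_prime_card (α := ↥J ⧸ H) (p := 2) (by rw [← index_eq_card, hH])
      infer_instance
    exact Subgroup.Normal.quotient_commutative_iff_commutator_le.mp this
  rw [hperf, top_le_iff] at hle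
  rw [hle, index_top] at hH
  norm_num at hH

end Cfsg.Agent.Intrinsic
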