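import Cfsg.Agent.Tech.Bar
import Cfsg.Agent.Tech.LocalBalance
import Cfsg.Agent.Subnormal.Join
import Cfsg.Agent.Intrinsic.TwoGroup

/-!
Elementary facts about a subgroup with a unique involution `z` which is a `2`-component of the
centralizer of `z`: commuting of distinct components inside 2-groups, and conjugates.
-/

set_option autoImplicit false

open Cfsg Subgroup

namespace Cfsg.Agent.Intrinsic

variable {G : Type*} [Group G]

/-- The centralizer of an element. -/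
abbrev Cz (x : G) : Subgroup G := centralizer ({x} : Set G)

/-- The odd core of the centralizer of an element. -/
abbrev Oz (x : G) : Subgroup G := centralizerPPrimeCore 2 x

/-- The conjugate `g⁻¹ J g`. -/
abbrev cg (J : Subgroup G) (g : G) : Subgroup G := J.map (MulAut.conj g⁻¹).toMonoidHom

/-- `J` has the unique involution `z` and is a `2`-component of `C(z)`. -/
structure Comp (J : Subgroup G) (z : G) : Prop where
  ord : orderOf z = 2
  mem : z ∈ J
  uniq : ∀ u ∈ J, orderOf u = 2 → u = z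
  comp : IsPComponentOf 2 J (Cz z)

/-- Up to inversion and modulo the core, `J` has one class of elements squaring to `z`. -/
def ClassFour (J : Subgroup G) (z : G) : Prop :=
  ∀ a ∈ J, ∀ b ∈ J, a ^ 2 = z → b ^ 2 = z →
    ∃ w ∈ J, ∃ u ∈ Oz z, w⁻¹ * a * w = b * u ∨ w⁻¹ * a * w = b⁻¹ * u

theorem mem_Cz {a x : G} : a ∈ Cz x ↔ a * x = x * a :=
  ⟨fun h => mem_centralizer_singleton_iff.mp h, fun h => mem_centralizer_singleton_iff.mpr h⟩

theorem mem_cg {J : Subgroup G} {g x : G} : x ∈ cg J g ↔ g * x * g⁻¹ ∈ J := by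
  rw [Subgroup.mem_map_equiv]
  have e : (MulAut.conj g⁻¹).symm x = g * x * g⁻¹ := by
    rw [MulEquiv.symm_apply_eq, MulAut.conj_apply]; group
  rw [e]

theorem cg_one (J : Subgroup G) : cg J 1 = J := by
  ext x; rw [mem_cg]; simp

theorem cg_cg (J : Subgroup G) (g h : G) : cg (cg J g) h = cg J (g * h) := by
  ext x; rw [mem_cg, mem_cg, mem_cg]; simp [mul_assoc]

theorem conj_mem_cg {J : Subgroup G} {g x : G} (hx : x ∈ J) : g⁻¹ * x * g ∈ cg J g := by
  rw [mem_cg]; simpa [mul_assoc] using hx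

theorem cg_eq_iff {J : Subgroup G} {g : G} : cg J g = J ↔ g ∈ normalizer (J : Set G) := by
  rw [← inv_mem_iff (x := g), mem_normalizer_iff_map_conj_eq]
  rfl

theorem cg_eq_cg_iff {J : Subgroup G} {g h : G} :
    cg J g = cg J h ↔ g * h⁻¹ ∈ normalizer (J : Set G) := by
  rw [← cg_eq_iff]
  constructor
  · intro e
    have e2 := congrArg (fun S => cg S h⁻¹) e
    simp only [cg_cg, mul_inv_cancel, cg_one] at e2
    exact e2
  · intro e
    have e2 := congrArg (fun S => cg S h) e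
    simp only [cg_cg, inv_mul_cancel_right] at e2
    exact e2

theorem Cz_conj (z g : G) : (Cz z).map (MulAut.conj g⁻¹).toMonoidHom = Cz (g⁻¹ * z * g) := by
  ext x
  change x ∈ cg (Cz z) g ↔ x ∈ Cz (g⁻¹ * z * g)
  rw [mem_cg, mem_Cz, mem_Cz]
  constructor
  · intro h
    calc x * (g⁻¹ * z * g) = g⁻¹ * ((g * x * g⁻¹) * z) * g := by group
      _ = g⁻¹ * (z * (g * x * g⁻¹)) * g := by rw [h]
      _ = g⁻¹ * z * g * x := by group
  · intro h
    calc (g * x * g⁻¹) * z = g * (x * (g⁻¹ * z * g)) * g⁻¹ := by group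
      _ = g * (g⁻¹ * z * g * x) * g⁻¹ := by rw [h]
      _ = z * (g * x * g⁻¹) := by group

theorem two_of_mem {P : Subgroup G} (hP : IsPGroup 2 P) {u : G} (hu : u ∈ P) :
    IsPGroup 2 (zpowers u) := hP.to_le (zpowers_le.mpr hu)

theorem mem_normalizer_conj {L : Subgroup G} {u v : G} (hu : u ∈ L) (hv : v ∈ normalizer (L : Set G)) :
    v⁻¹ * u * v ∈ L :=
  (mem_normalizer_iff''.mp hv u).mp hu

variable [Finite G]

set_option linter.unusedSectionVars false

theorem isPComponentOf_map {J H : Subgroup G} (φ : G ≃* G) (h : IsPComponentOf 2 J H) :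
    IsPComponentOf 2 (J.map φ.toMonoidHom) (H.map φ.toMonoidHom) := by
  refine ⟨map_mono h.1, ?_⟩
  have hm := Components.pComponent_map_equiv (p := 2)
    (show ↥H ≃* ↥(H.map φ.toMonoidHom) from φ.subgroupMap H) h.2
  refine (congrArg (IsPComponent 2) ?_).mpr hm
  ext ⟨x, hx⟩
  rw [mem_subgroupOf]
  constructor
  · rintro ⟨k, hk, rfl⟩
    exact ⟨⟨k, h.1 hk⟩, hk, rfl⟩
  · rintro ⟨k, hk, hkx⟩
    exact ⟨k, hk, congrArg Subtype.val hkx⟩

theorem isPComponentOf_cg {J : Subgroup G} {z : G} (h : IsPComponentOf 2 J (Cz z)) (g : G) :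
    IsPComponentOf 2 (cg J g) (Cz (g⁻¹ * z * g)) := by
  rw [← Cz_conj]; exact isPComponentOf_map _ h

theorem Comp.cg' {J : Subgroup G} {z : G} (h : Comp J z) (g : G) :
    Comp (cg J g) (g⁻¹ * z * g) := by
  have e : g⁻¹ * z * g = (MulAut.conj g⁻¹) z := by simp
  refine ⟨?_, conj_mem_cg h.mem, fun u hu hu2 => ?_, isPComponentOf_cg h.comp g⟩
  · rw [e, MulEquiv.orderOf_eq, h.ord]
  · rw [mem_cg] at hu
    have := h.uniq _ hu (by
      rw [show g * u * g⁻¹ = (MulAut.conj g) u by simp, MulEquiv.orderOf_eq, hu2])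
    rw [← this]; group

theorem eq_one_of_core {x u : G} (hu : IsPGroup 2 (zpowers u)) (h : u ∈ Oz x) : u = 1 := by
  obtain ⟨k, hk⟩ := hu ⟨u, mem_zpowers u⟩
  exact Tech.eq_one_of_pow_of_mem (p := 2) (Tech.coreOf_coprime (p := 2) (Cz x)) h
    ⟨k, congrArg Subtype.val hk⟩

theorem normalizes_of_same {H L M : Subgroup G} (hL : IsPComponentOf 2 L H)
    (hM : IsPComponentOf 2 M H) : M ≤ normalizer (L : Set G) := by
  intro m hm
  have h := Components.pComponent_normalizes hL.2 hM.2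
    (mem_subgroupOf.mpr hm : (⟨m, hM.1 hm⟩ : H) ∈ M.subgroupOf H)
  rw [mem_normalizer_iff]
  intro x
  constructor
  · intro hx
    exact (mem_normalizer_iff.mp h ⟨x, hL.1 hx⟩).mp hx
  · intro hx
    have hxH : x ∈ H := by
      have := mul_mem (mul_mem (inv_mem (hM.1 hm)) (hL.1 hx)) (hM.1 hm)
      simpa [mul_assoc] using this
    exact (mem_normalizer_iff.mp h ⟨x, hxH⟩).mpr hx

theorem commutator_mem_core {H L M : Subgroup G} (hL : IsPComponentOf 2 L H)
    (hM : IsPComponentOf 2 M H) (hne : L ≠ M) {u v : G} (hu : u ∈ L) (hv : v ∈ M) :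
    u * v * u⁻¹ * v⁻¹ ∈ Tech.coreOf 2 H := by
  have hne' : L.subgroupOf H ≠ M.subgroupOf H := fun e => hne (by
    have := congrArg (Subgroup.map H.subtype) e
    rwa [map_subgroupOf_eq_of_le hL.1, map_subgroupOf_eq_of_le hM.1] at this)
  have h := (Components.pComponent_commutator_le hL.2 hM.2 hne').trans inf_le_right
    (commutator_mem_commutator (g₁ := (⟨u, hL.1 hu⟩ : H)) (g₂ := ⟨v, hM.1 hv⟩)
      (mem_subgroupOf.mpr hu) (mem_subgroupOf.mpr hv))
  refine ⟨_, h, ?_⟩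
  simp [commutatorElement_def]

theorem comm_of_ne {z : G} {P L M : Subgroup G} (hP : IsPGroup 2 P)
    (hL : IsPComponentOf 2 L (Cz z)) (hM : IsPComponentOf 2 M (Cz z)) (hne : L ≠ M)
    {u v : G} (hu : u ∈ L) (huP : u ∈ P) (hv : v ∈ M) (hvP : v ∈ P) : u * v = v * u := by
  have h1 : u * v * u⁻¹ * v⁻¹ ∈ P :=
    mul_mem (mul_mem (mul_mem huP hvP) (inv_mem huP)) (inv_mem hvP)
  have h2 := eq_one_of_core (two_of_mem hP h1) (commutator_mem_core hL hM hne hu hv)
  calc u * v = (u * v * u⁻¹ * v⁻¹) * (v * u) := by group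
    _ = v * u := by rw [h2, one_mul]

theorem exists_two_group (z : G) {S : Subgroup G} (hS : IsPGroup 2 S) (hSC : S ≤ Cz z) :
    ∃ P : Subgroup G, IsPGroup 2 P ∧ S ≤ P ∧ P ≤ Cz z ∧
      ∀ J : Subgroup G, IsPComponentOf 2 J (Cz z) → ¬ IsCyclic ↥(J ⊓ P) := by
  obtain ⟨T, hT⟩ := (hS.comap_subtype (K := Cz z)).exists_le_sylow
  refine ⟨(T : Subgroup (Cz z)).map (Cz z).subtype, T.2.map _, ?_, map_subtype_le _, ?_⟩
  · intro s hs
    exact ⟨⟨s, hSC hs⟩, hT (mem_subgroupOf.mpr hs), rfl⟩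
  intro J hJ hc
  obtain ⟨Q, hQ⟩ := SubnormalLib.exists_sylow_inf hJ.2.1 T
  have hperf := Tech.commutator_self_of_pComponentOf hJ
  have h2 : 2 ∣ Nat.card (J.subgroupOf (Cz z)) := Components.pComponent_card_dvd hJ.2
  refine not_isCyclic_sylow_of_perfect
    (Components.pComponent_commutator_self hJ.2) h2 Q ?_
  let f : ↥(Q : Subgroup ↥(J.subgroupOf (Cz z))) →* ↥(J ⊓ (T : Subgroup (Cz z)).map (Cz z).subtype) :=
    { toFun := fun q => ⟨((q : ↥(J.subgroupOf (Cz z))) : ↥(Cz z)),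
        ⟨(q : ↥(J.subgroupOf (Cz z))).2, ⟨_, (hQ.le q.2), rfl⟩⟩⟩
      map_one' := rfl
      map_mul' := fun _ _ => rfl }
  exact isCyclic_of_injective f fun a b h => by
    have := congrArg Subtype.val h
    exact Subtype.ext (Subtype.ext (Subtype.ext this))

theorem Comp.z_ne_one {J : Subgroup G} {z : G} (h : Comp J z) : z ≠ 1 := fun e => by
  simpa [e] using h.ord

theorem Comp.sq {J : Subgroup G} {z : G} (h : Comp J z) : z * z = 1 := by
  rw [← pow_two, ← h.ord, pow_orderOf_eq_one]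

theorem Comp.le {J : Subgroup G} {z : G} (h : Comp J z) : J ≤ Cz z := h.comp.1

theorem Comp.inv_eq {J : Subgroup G} {z : G} (h : Comp J z) : z⁻¹ = z :=
  inv_eq_of_mul_eq_one_right h.sq

theorem Comp.sq_eq_one {J : Subgroup G} {z u : G} (h : Comp J z) (hu : u ∈ J)
    (hu2 : u * u = 1) : u = 1 ∨ u = z := by
  by_cases h1 : u = 1
  · exact Or.inl h1
  · exact Or.inr (h.uniq u hu (orderOf_eq_prime (by rw [pow_two, hu2]) h1))

theorem Comp.exists_pow {J : Subgroup G} {z u : G} (h : Comp J z) (hu : u ∈ J)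
    (hu2 : IsPGroup 2 (zpowers u)) (hne : u * u ≠ 1) : ∃ k : ℕ, (u ^ k) ^ 2 = z := by
  obtain ⟨n, hn⟩ := IsPGroup.iff_orderOf.mp hu2 ⟨u, mem_zpowers u⟩
  rw [Subgroup.orderOf_mk] at hn
  rcases n with _ | _ | n
  · have hu1 : u = 1 := orderOf_eq_one_iff.mp (by simpa using hn)
    exact absurd (by rw [hu1, one_mul]) hne
  · exact absurd (by rw [← pow_two, ← pow_one 2, ← hn, pow_orderOf_eq_one]) hne
  · refine ⟨2 ^ n, ?_⟩
    rw [← pow_mul, ← pow_succ]
    refine h.uniq _ (pow_mem hu _) ?_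
    rw [orderOf_pow' _ (by positivity), hn, Nat.gcd_eq_right (pow_dvd_pow 2 (by omega)),
      Nat.pow_div (by omega) (by omega)]
    simp

theorem Comp.eq_of_commutes {J P : Subgroup G} {z u : G} (h : Comp J z) (hP : IsPGroup 2 P)
    (hPnc : ¬ IsCyclic ↥(J ⊓ P)) (hzP : z ∈ P) (hu : u ∈ J ⊓ P)
    (hc : ∀ b ∈ J ⊓ P, b * u = u * b) : u = 1 ∨ u = z := by
  by_contra hne
  obtain ⟨k, hk⟩ := h.exists_pow hu.1 (two_of_mem hP hu.2)
    (fun h2 => hne (h.sq_eq_one hu.1 h2))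
  obtain ⟨b, hb, hb2, hba⟩ := exists_inverting (hP.to_le inf_le_right)
    (Subgroup.mem_inf.mpr ⟨h.mem, hzP⟩) h.ord (fun v hv hv2 => h.uniq v hv.1 hv2) hPnc
    (pow_mem hu k) hk
  have hcomm : Commute b (u ^ k) := (show Commute b u from hc b hb).pow_right k
  rw [mul_assoc, ← hcomm.eq, ← mul_assoc, inv_mul_cancel, one_mul] at hba
  apply h.z_ne_one
  rw [← hk, pow_two]
  exact mul_eq_one_iff_eq_inv.mpr hba

theorem Comp.eq_of_central {J : Subgroup G} {z u : G} (h : Comp J z) (hu : u ∈ J)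
    (hu2 : IsPGroup 2 (zpowers u)) (hc : ∀ k ∈ J, u * k * u⁻¹ * k⁻¹ ∈ Oz z) : u = 1 ∨ u = z := by
  have hzz : IsPGroup 2 (zpowers z) :=
    IsPGroup.of_card (n := 1) (by rw [Nat.card_zpowers, h.ord, pow_one])
  have hN : zpowers z ≤ normalizer (zpowers u : Set G) := by
    refine le_trans (zpowers_le.mpr ?_) (centralizer_le_normalizer _)
    rw [zpowers_eq_closure, centralizer_closure, mem_centralizer_singleton_iff]
    exact (mem_Cz.mp (h.le hu)).symm
  obtain ⟨P, hP, hSP, hPC, hnc⟩ := exists_two_group z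
    (hzz.to_sup_of_normal_right' hu2 hN)
    (sup_le (zpowers_le.mpr (h.le h.mem)) (zpowers_le.mpr (h.le hu)))
  have huP : u ∈ P := hSP (mem_sup_right (mem_zpowers u))
  refine h.eq_of_commutes hP (hnc J h.comp) (hSP (mem_sup_left (mem_zpowers z))) ⟨hu, huP⟩ ?_
  intro b hb
  have h1 : u * b * u⁻¹ * b⁻¹ ∈ P :=
    mul_mem (mul_mem (mul_mem huP hb.2) (inv_mem huP)) (inv_mem hb.2)
  have h2 := eq_one_of_core (two_of_mem hP h1) (hc b hb.1)
  calc b * u = (u * b * u⁻¹ * b⁻¹) * (b * u) := by rw [h2, one_mul]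
    _ = u * b := by group

end Cfsg.Agent.Intrinsic
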