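import Cfsg.Prelude.Def_ClassificationStages
import Cfsg.Agent.Cores.Basic
import Cfsg.Agent.CharTwo.SLPair
import Mathlib.GroupTheory.SpecificGroups.Alternating

/-!
# Elements of order four in a group of type `SL₂(q)` or `2A₇` modulo the odd core
-/

set_option autoImplicit false
open Cfsg Subgroup
open scoped MatrixGroups

namespace Cfsg.Agent.Intrinsic

/-- The involutions of the alternating group of degree seven form one class. -/
theorem altSeven_conj_of_sq_one {g h : alternatingGroup (Fin 7)} (hg1 : g ≠ 1) (hg : g * g = 1)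
    (hh1 : h ≠ 1) (hh : h * h = 1) : IsConj g h := by
  have key : ∀ k : alternatingGroup (Fin 7), k ≠ 1 → k * k = 1 →
      (k : Equiv.Perm (Fin 7)).cycleType = Multiset.replicate 2 2 := by
    intro k hk1 hk
    have ho : orderOf (k : Equiv.Perm (Fin 7)) = 2 := by
      refine orderOf_eq_prime ?_ fun e => hk1 (Subtype.ext e)
      rw [pow_two]; exact congrArg Subtype.val hk
    obtain ⟨n, hn⟩ := Equiv.Perm.cycleType_prime_order (σ := (k : Equiv.Perm (Fin 7)))
      (by rw [ho]; exact Nat.prime_two)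
    rw [ho] at hn
    have hs : (k : Equiv.Perm (Fin 7)).cycleType.sum ≤ 7 := by
      rw [Equiv.Perm.sum_cycleType]
      exact (Finset.card_le_univ _).trans (by simp)
    have hsg : Equiv.Perm.sign (k : Equiv.Perm (Fin 7)) = 1 := k.2
    rw [Equiv.Perm.sign_of_cycleType, hn] at hsg
    rw [hn] at hs ⊢
    simp only [Multiset.sum_replicate, Multiset.card_replicate, smul_eq_mul] at hs hsg
    have hn3 : n ≤ 2 := by omega
    interval_cases n
    · exact absurd hsg (by decide)
    · rfl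
    · exact absurd hsg (by decide)
  refine alternatingGroup.isConj_of ?_ ?_
  · exact Equiv.Perm.isConj_iff_cycleType_eq.2 ((key g hg1 hg).trans (key h hh1 hh).symm)
  · rw [← Equiv.Perm.sum_cycleType, key g hg1 hg]; simp

variable {G : Type*} [Group G] [Finite G]

/-- In a group `J` with a unique involution `zJ` which is `SL₂(q)` or `2A₇` modulo its odd core,
the elements squaring to `zJ` are conjugate up to inversion and the odd core. -/
theorem order_four_class {J : Subgroup G} {zJ : G} (hz : zJ ∈ J ∧ orderOf zJ = 2)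
    (huniq : ∀ u ∈ J, orderOf u = 2 → u = zJ)
    (htype : (∃ (F : Type) (_ : Field F) (_ : Fintype F), Odd (Fintype.card F) ∧
        Nonempty (↥J ⧸ oddCore ↥J ≃* Matrix.SpecialLinearGroup (Fin 2) F)) ∨
      IsNonsplitDoubleCover (↥J ⧸ oddCore ↥J) ↥(alternatingGroup (Fin 7))) :
    ∀ a ∈ J, ∀ b ∈ J, a ^ 2 = zJ → b ^ 2 = zJ →
      ∃ w ∈ J, ∃ u ∈ (oddCore ↥J).map J.subtype, w⁻¹ * a * w = b * u ∨ w⁻¹ * a * w = b⁻¹ * u := by
  set z : J := ⟨zJ, hz.1⟩ with hzdef
  have hm : Odd (Nat.card (oddCore ↥J)) :=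
    Nat.coprime_two_right.mp (Cores.pPrimeCore_coprime (G := ↥J) (p := 2))
  set m := Nat.card (oddCore ↥J) with hmdef
  let π : ↥J →* ↥J ⧸ oddCore ↥J := QuotientGroup.mk' (oddCore ↥J)
  have hzQ : π z ≠ 1 := fun e => by
    have hzO : z ∈ oddCore ↥J := (QuotientGroup.eq_one_iff z).1 e
    have h2 : orderOf (⟨z, hzO⟩ : oddCore ↥J) = 2 := by
      rw [Subgroup.orderOf_mk, hzdef, Subgroup.orderOf_mk]; exact hz.2
    have hd := orderOf_dvd_natCard (⟨z, hzO⟩ : oddCore ↥J)
    rw [h2, ← hmdef] at hd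
    rcases hm with ⟨k, hk⟩; omega
  have hinv : ∀ q : ↥J ⧸ oddCore ↥J, q * q = 1 → q = 1 ∨ q = π z := by
    intro q hq
    obtain ⟨x, rfl⟩ := QuotientGroup.mk'_surjective (oddCore ↥J) q
    have hx : x * x ∈ oddCore ↥J := by
      rw [← QuotientGroup.eq_one_iff]; simpa [π] using hq
    have hy : (x ^ m) * (x ^ m) = 1 := by
      rw [← (Commute.refl x).mul_pow]
      exact orderOf_dvd_iff_pow_eq_one.1
        ((Subgroup.orderOf_mk (x * x) hx) ▸ orderOf_dvd_natCard (⟨x * x, hx⟩ : oddCore ↥J))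
    have hπ : π (x ^ m) = π x := by
      obtain ⟨k, hk⟩ := hm
      have hq' : π x * π x = 1 := hq
      rw [hk, map_pow, pow_succ, pow_mul, pow_two, hq', one_pow, one_mul]
    rcases eq_or_ne (x ^ m) 1 with e | e
    · left; rw [← hπ, e, map_one]
    · right
      have ho : orderOf ((x ^ m : J) : G) = 2 := by
        refine orderOf_eq_prime ?_ fun e' => e (Subtype.ext e')
        rw [pow_two]; exact congrArg Subtype.val hy
      rw [← hπ, show x ^ m = z from Subtype.ext (huniq _ (x ^ m).2 ho)]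
  have hsolve : ∀ p q : ↥J ⧸ oddCore ↥J, p * p = π z → q * q = π z →
      ∃ c, c⁻¹ * p * c = q ∨ c⁻¹ * p * c = q⁻¹ := by
    have hz2 : π z * π z = 1 := by
      rw [← map_mul, show z * z = 1 from ?_, map_one]
      exact Subtype.ext (by
        show zJ * zJ = 1
        rw [← pow_two, ← hz.2]; exact pow_orderOf_eq_one zJ)
    intro p q hp hq
    rcases htype with ⟨F, _, _, hF, ⟨e⟩⟩ | ⟨hc2, ⟨f⟩, -⟩
    · have hneg : e (π z) = -1 := Subtype.ext (by
        rw [Linear.eq_neg_one_of_mul_self (Linear.two_ne_zero_of_odd_card hF) (g := e (π z))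
          (fun h => hzQ (e.map_eq_one_iff.1 h)) (by rw [← map_mul, hz2, map_one])]
        simp)
      obtain ⟨P, hP⟩ := CharTwo.exists_conj_slJ hF (A := e p) (by rw [← map_mul, hp, hneg])
      obtain ⟨R, hR⟩ := CharTwo.exists_conj_slJ hF (A := e q) (by rw [← map_mul, hq, hneg])
      refine ⟨e.symm (P * R⁻¹), Or.inl (e.injective ?_)⟩
      rw [map_mul, map_mul, map_inv, e.apply_symm_apply, ← hP, ← hR]
      group
    · have hmemC : ∀ c ∈ center (↥J ⧸ oddCore ↥J), c = 1 ∨ c = π z := by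
        intro c hc
        refine hinv c ?_
        have := pow_card_eq_one' (x := (⟨c, hc⟩ : center (↥J ⧸ oddCore ↥J)))
        rw [hc2, pow_two] at this
        exact congrArg Subtype.val this
      have hzC : π z ∈ center (↥J ⧸ oddCore ↥J) := by
        have : Nontrivial (center (↥J ⧸ oddCore ↥J)) :=
          Finite.one_lt_card_iff_nontrivial.1 (by rw [hc2]; norm_num)
        obtain ⟨⟨d, hd⟩, hd1⟩ := exists_ne (1 : center (↥J ⧸ oddCore ↥J))
        rcases hmemC d hd with e | e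
        · exact absurd (Subtype.ext e) hd1
        · exact e ▸ hd
      have hne : ∀ r : ↥J ⧸ oddCore ↥J, r * r = π z →
          f (r : (↥J ⧸ oddCore ↥J) ⧸ center (↥J ⧸ oddCore ↥J)) ≠ 1 ∧
          f (r : (↥J ⧸ oddCore ↥J) ⧸ center (↥J ⧸ oddCore ↥J)) * f r = 1 := by
        intro r hr
        constructor
        · intro e
          have hrC := (QuotientGroup.eq_one_iff r).1 (f.map_eq_one_iff.1 e)
          rcases hmemC r hrC with e' | e' <;> rw [e'] at hr
          · exact hzQ (by rw [← hr, one_mul])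
          · exact hzQ (hr.symm.trans hz2)
        · rw [← map_mul, ← QuotientGroup.mk_mul, hr, (QuotientGroup.eq_one_iff _).2 hzC, map_one]
      obtain ⟨s, hs⟩ := isConj_iff.1
        (altSeven_conj_of_sq_one (hne p hp).1 (hne p hp).2 (hne q hq).1 (hne q hq).2)
      obtain ⟨c, hc⟩ := QuotientGroup.mk_surjective (f.symm s⁻¹)
      refine ⟨c, ?_⟩
      have hcq : q⁻¹ * (c⁻¹ * p * c) ∈ center (↥J ⧸ oddCore ↥J) := by
        rw [← QuotientGroup.eq]
        refine f.injective ?_
        rw [QuotientGroup.mk_mul, QuotientGroup.mk_mul, QuotientGroup.mk_inv, map_mul, map_mul,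
          map_inv, hc, f.apply_symm_apply, inv_inv, hs]
      rcases hmemC _ hcq with e | e
      · left; exact (inv_mul_eq_one.1 e).symm
      · right
        rw [inv_mul_eq_iff_eq_mul.1 e, eq_inv_iff_mul_eq_one, ← hq, mul_assoc, mul_assoc, hq,
          ← mul_assoc, hq, hz2]
  intro a ha b hb ha2 hb2
  have hpow : ∀ x : J, (x : G) ^ 2 = zJ → π x * π x = π z := fun x hx => by
    rw [← map_mul]
    exact congrArg π (Subtype.ext (by show (x : G) * x = zJ; rw [← pow_two]; exact hx))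
  obtain ⟨c, hc⟩ := hsolve _ _ (hpow ⟨a, ha⟩ ha2) (hpow ⟨b, hb⟩ hb2)
  obtain ⟨w, rfl⟩ := QuotientGroup.mk'_surjective (oddCore ↥J) c
  refine ⟨w, w.2, ?_⟩
  rcases hc with hc | hc
  · have hu : (⟨b, hb⟩ : J)⁻¹ * (w⁻¹ * ⟨a, ha⟩ * w) ∈ oddCore ↥J := by
      rw [← QuotientGroup.eq]; simpa [π] using hc.symm
    exact ⟨_, mem_map_of_mem _ hu, Or.inl (by simp)⟩
  · have hu : ((⟨b, hb⟩ : J)⁻¹)⁻¹ * (w⁻¹ * ⟨a, ha⟩ * w) ∈ oddCore ↥J := by
      rw [← QuotientGroup.eq]; simpa [π] using hc.symm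
    exact ⟨_, mem_map_of_mem _ hu, Or.inr (by simp)⟩

end Cfsg.Agent.Intrinsic
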