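import Cfsg.Agent.S1301
import Cfsg.Agent.Tech.Bar
import Cfsg.Agent.Tech.PumpUp

/-!
# The 2-layer of the centralizer of two commuting involutions
-/

set_option autoImplicit false
set_option linter.unusedSectionVars false

namespace Cfsg.Agent.Intrinsic

open Cfsg Subgroup
open scoped commutatorElement

variable {G : Type*} [Group G] [Finite G]

lemma isPGroup_zpowers_two {e : G} (he2 : e * e = 1) : IsPGroup 2 (zpowers e) := by
  rintro ⟨x, hx⟩
  obtain ⟨k, rfl⟩ := mem_zpowers_iff.mp hx
  refine ⟨1, Subtype.ext ?_⟩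
  have h : e ^ (2 : ℕ) = 1 := by rw [pow_two, he2]
  change (e ^ k) ^ (2 ^ 1) = 1
  rw [pow_one, ← zpow_natCast, ← zpow_mul, mul_comm, zpow_mul, zpow_natCast, h, one_zpow]

/-- The centralizer of `e` inside `C`. -/
lemma centralizer_zpowers_subgroupOf {C : Subgroup G} {e : G} (he : e ∈ C) :
    centralizer ((zpowers (⟨e, he⟩ : C) : Subgroup C) : Set C) =
      (C ⊓ centralizer ({e} : Set G)).subgroupOf C := by
  ext x
  rw [Components.centralizer_zpowers_eq, mem_centralizer_singleton_iff, mem_subgroupOf, mem_inf,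
    mem_centralizer_singleton_iff, Subtype.ext_iff]
  simp [x.2]

theorem pLayerOf_inf_le {z e : G} (he2 : e * e = 1) (hze : z * e = e * z) :
    pLayerOf 2 (centralizer ({z} : Set G) ⊓ centralizer ({e} : Set G)) ≤
      pLayerOf 2 (centralizer ({z} : Set G)) := by
  set C := centralizer ({z} : Set G) with hC
  have he : e ∈ C := mem_centralizer_singleton_iff.mpr hze.symm
  set H := C ⊓ centralizer ({e} : Set G) with hH
  have hT : IsPGroup 2 (zpowers (⟨e, he⟩ : C)) := isPGroup_zpowers_two (Subtype.ext he2)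
  have key : ∀ S : Subgroup C, S = centralizer ((zpowers (⟨e, he⟩ : C) : Subgroup C) : Set C) →
      (pLayer 2 ↥S).map S.subtype ≤ pLayer 2 ↥C := by
    rintro S rfl
    exact S1301.result _ hT
  have h := map_mono (f := C.subtype) (key _ (centralizer_zpowers_subgroupOf he).symm)
  refine le_trans (le_of_eq ?_) h
  have hle : H ≤ C := inf_le_left
  unfold pLayerOf
  rw [← Components.pLayer_map_equiv (p := 2) (subgroupOfEquivOfLe hle), Subgroup.map_map,
    Subgroup.map_map]
  rfl

theorem mem_normalizer_of_subgroupOf {H L : Subgroup G} (hLH : L ≤ H) {x : H}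
    (hx : x ∈ normalizer ((L.subgroupOf H : Subgroup H) : Set H)) :
    (x : G) ∈ normalizer (L : Set G) := by
  have h := le_normalizer_map (H := L.subgroupOf H) H.subtype ⟨x, hx, rfl⟩
  rwa [map_subgroupOf_eq_of_le hLH] at h

theorem mem_normalizer_of_mem_pLayerOf {H L : Subgroup G} (hL : IsPComponentOf 2 L H) {x : G}
    (hx : x ∈ pLayerOf 2 H) : x ∈ normalizer (L : Set G) := by
  obtain ⟨u, hu, rfl⟩ := hx
  refine mem_normalizer_of_subgroupOf hL.1 ?_
  exact (Components.pLayer_le_iff.mpr fun K hK => Components.pComponent_normalizes hL.2 hK) hu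

/-- Across a surjection with odd kernel, a 2-element over the layer lies in the layer. -/
theorem mem_pLayer_of_map_mem {A B : Type*} [Group A] [Finite A] [Group B] [Finite B]
    (f : A →* B) (hf : Function.Surjective f) (hker : (Nat.card f.ker).Coprime 2) {x : A}
    (hx : ∃ k : ℕ, x ^ 2 ^ k = 1) (hfx : f x ∈ pLayer 2 B) : x ∈ pLayer 2 A := by
  set g := (QuotientGroup.mk' (pPrimeCore 2 B)).comp f with hg
  have hgs : Function.Surjective g := (QuotientGroup.mk'_surjective _).comp hf
  have hgk : g.ker = pPrimeCore 2 A := by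
    refine le_antisymm ?_ ?_
    · refine Cores.le_pPrimeCore inferInstance ?_
      rw [hg, ← MonoidHom.comap_ker, QuotientGroup.ker_mk']
      set C := (pPrimeCore 2 B).comap f
      rw [card_eq_card_quotient_mul_card_subgroup (f.comp C.subtype).ker,
        Nat.card_congr (QuotientGroup.quotientKerEquivRange _).toEquiv]
      refine Nat.Coprime.mul_left ?_ ?_
      · refine (Cores.pPrimeCore_coprime (p := 2) (G := B)).coprime_dvd_left (card_dvd_of_le ?_)
        rintro _ ⟨z, rfl⟩
        exact z.2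
      · refine hker.coprime_dvd_left ?_
        rw [← MonoidHom.comap_ker]
        exact card_comap_dvd_of_injective _ _ C.subtype_injective
    · intro z hz
      exact (QuotientGroup.eq_one_iff _).mpr
        (Cores.map_pPrimeCore_le_of_surjective (p := 2) f hf (mem_map_of_mem f hz))
  let e : A ⧸ pPrimeCore 2 A ≃* B ⧸ pPrimeCore 2 B :=
    (QuotientGroup.quotientMulEquivOfEq hgk.symm).trans
      (QuotientGroup.quotientKerEquivOfSurjective g hgs)
  have h1 : g x ∈ layer (B ⧸ pPrimeCore 2 B) := by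
    rw [← Components.pLayer_map_eq]
    exact mem_map_of_mem _ hfx
  rw [← Components.layer_map_equiv e] at h1
  obtain ⟨w, hw, hwx⟩ := h1
  have he : e (QuotientGroup.mk' _ x) = g x := rfl
  have hw' : w = QuotientGroup.mk' _ x := e.injective (hwx.trans he.symm)
  rw [Components.pLayer_eq_pGen_comap]
  obtain ⟨k, hk⟩ := hx
  rw [hw'] at hw
  exact Components.mem_pGen (mem_comap.mpr hw) hk

/-- The diagonal of a moved component is a component of the centralizer. -/
theorem diag_component {Q : Type*} [Group Q] [Finite Q] {b : Q} {K W : Subgroup Q}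
    (hK : IsComponent K) (hb : b ^ 2 = 1) (hbK : b ∉ normalizer (K : Set Q))
    (hW : W = centralizer ({b} : Set Q)) :
    (Tech.diagHom hK hb hbK).range ≤ W ∧
      IsComponent ((Tech.diagHom hK hb hbK).range.subgroupOf W) := by
  set D := (Tech.diagHom hK hb hbK).range with hD
  have hmem : ∀ u ∈ K, (u * b) ^ 2 ∈ D := fun u hu => ⟨⟨u, hu⟩, rfl⟩
  have hDW : D ≤ W := by
    rintro _ ⟨⟨u, hu⟩, rfl⟩
    rw [hW]
    exact mem_centralizer_singleton_iff.mpr (Tech.diag_commute hK hb hbK hu)
  have hDO : D ≤ Tech.orbitSup b K := by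
    rintro _ ⟨⟨u, hu⟩, rfl⟩
    exact Tech.diag_mem_orbitSup hb hu
  have hn : Tech.orbitSup b K ⊓ W ≤ normalizer (D : Set Q) := by
    rw [le_normalizer_iff_commutator_le_right, commutator_le]
    rintro q ⟨hqO, hqW⟩ x hx
    rw [hW] at hqW
    obtain ⟨v, hv, hc⟩ := Tech.exists_inner_of_mem_layer hK (Tech.orbitSup_le_layer hK hqO)
    set d := (v * b) ^ 2 with hd
    have h1 : d⁻¹ * q ∈ centralizer (K : Set Q) := by
      have := mul_mem (inv_mem (Tech.inv_mul_diag_mem hK hb hbK hv)) hc
      simpa [mul_assoc, hd] using this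
    have h2 : Commute (d⁻¹ * q) b :=
      (show Commute d b from Tech.diag_commute hK hb hbK hv).inv_left.mul_left
        (mem_centralizer_singleton_iff.mp hqW)
    have h3 := mem_centralizer_iff.mp (Tech.mem_centralizer_orbitSup h1 h2) x (hDO hx)
    have e : ⁅q, x⁆ = d * x * d⁻¹ * x⁻¹ := by
      rw [commutatorElement_def]
      calc q * x * q⁻¹ * x⁻¹ = d * ((d⁻¹ * q) * x) * q⁻¹ * x⁻¹ := by group
        _ = d * (x * (d⁻¹ * q)) * q⁻¹ * x⁻¹ := by rw [h3]
        _ = _ := by group
    rw [e]
    exact mul_mem (mul_mem (mul_mem (hmem v hv) hx) (inv_mem (hmem v hv))) (inv_mem hx)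
  refine ⟨hDW, ?_, ?_⟩
  · have h1 : ((Tech.orbitSup b K ⊓ W).subgroupOf W).IsSubnormal := by
      rw [inf_subgroupOf_right]
      exact (Tech.orbitSup_subnormal hK).subgroupOf
    refine IsSubnormal.step _ _ (comap_mono (le_inf hDO hDW)) h1
      (normal_subgroupOf_of_le_normalizer ?_)
    exact (comap_mono hn).trans (le_normalizer_comap W.subtype)
  · refine Components.quasisimple_of_mulEquiv (subgroupOfEquivOfLe hDW).symm ?_
    have : Nontrivial D := by
      by_contra hn'
      have hs : Subsingleton D := not_nontrivial_iff_subsingleton.mp hn'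
      refine Tech.component_not_le_centralizer hK fun u hu => ?_
      refine Tech.mem_centralizer_of_diag hK hb hbK hu ?_
      rw [show (u * b) ^ 2 = 1 from
        congrArg Subtype.val (Subsingleton.elim (⟨_, hmem u hu⟩ : D) 1)]
      exact one_mem _
    exact Components.quasisimple_of_surjective hK.2 _
      (Tech.diagHom hK hb hbK).rangeRestrict_surjective

theorem diag_mem_pLayerOf {t e y : G} {K : Subgroup G}
    (hK : IsPComponentOf 2 K (centralizer ({t} : Set G))) (he2 : e * e = 1) (hte : t * e = e * t)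
    (hne : e ∉ normalizer (K : Set G)) (hy : y ∈ K) (hy2 : IsPGroup 2 (zpowers y))
    (hcomm : y * (e * y * e) = (e * y * e) * y) :
    y * (e * y * e) ∈ pLayerOf 2 (centralizer ({t} : Set G) ⊓ centralizer ({e} : Set G)) := by
  set C := centralizer ({t} : Set G) with hC
  have he : e ∈ C := mem_centralizer_singleton_iff.mpr hte.symm
  have hyC : y ∈ C := hK.1 hy
  set π := QuotientGroup.mk' (pPrimeCore 2 ↥C) with hπ
  set E : C := ⟨e, he⟩ with hE
  set Y : C := ⟨y, hyC⟩ with hY
  set b := π E with hb'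
  set Kb := (K.subgroupOf C).map π with hKb'
  have hKb : IsComponent Kb := hK.2.2.1
  have hb : b ^ 2 = 1 := by
    rw [hb', ← map_pow, show E ^ 2 = 1 from Subtype.ext (by rw [hE]; simpa [pow_two] using he2),
      map_one]
  have hbK : b ∉ normalizer (Kb : Set (↥C ⧸ pPrimeCore 2 ↥C)) := fun h =>
    hne (mem_normalizer_of_subgroupOf hK.1 (Components.pComponent_normalizer hK.2 (x := E) h))
  set T := zpowers E with hT
  have hT2 : IsPGroup 2 T := isPGroup_zpowers_two (Subtype.ext he2)
  set S := centralizer (T : Set C) with hS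
  have himg : S.map π = centralizer ({b} : Set (↥C ⧸ pPrimeCore 2 ↥C)) := by
    have h := (S3800.result (pPrimeCore 2 ↥C) Cores.pPrimeCore_coprime T hT2).2
    rw [hT, MonoidHom.map_zpowers, Components.centralizer_zpowers_eq] at h
    exact h.symm
  set u : C := Y * (E * Y * E) with hu
  have hcomm' : Commute Y (E * Y * E) := Subtype.ext hcomm
  have hu2 : ∃ k : ℕ, u ^ 2 ^ k = 1 := by
    obtain ⟨k, hk⟩ := hy2 ⟨y, mem_zpowers y⟩
    have hk' : Y ^ 2 ^ k = 1 := Subtype.ext (by simpa [hY] using congrArg Subtype.val hk)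
    refine ⟨k, ?_⟩
    have hinv : E⁻¹ = E := inv_eq_of_mul_eq_one_right (Subtype.ext he2)
    have h1 : E * Y * E = E * Y * E⁻¹ := by rw [hinv]
    rw [hu, hcomm'.mul_pow, hk', one_mul, h1, conj_pow, hk', mul_one, mul_inv_cancel]
  have huS : u ∈ S := by
    rw [hS, hT, Components.centralizer_zpowers_eq, mem_centralizer_singleton_iff]
    have hEE : E * E = 1 := Subtype.ext he2
    calc u * E = Y * E * Y * (E * E) := by rw [hu]; group
      _ = Y * E * Y := by rw [hEE, mul_one]
      _ = (Y * (E * Y * E)) * E := by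
        rw [show Y * (E * Y * E) * E = Y * E * Y * (E * E) by group, hEE, mul_one]
      _ = (E * Y * E * Y) * E := by rw [hcomm'.eq]
      _ = E * u := by rw [hu]; group
  obtain ⟨hDW, hDc⟩ := diag_component hKb hb hbK himg
  set D := (Tech.diagHom hKb hb hbK).range
  have hπu : π u = (π Y * b) ^ 2 := by
    rw [hu, hb', pow_two, map_mul, map_mul, map_mul]; group
  have hmain : (⟨u, huS⟩ : S) ∈ pLayer 2 ↥S := by
    set f := π.subgroupMap S
    refine mem_pLayer_of_map_mem f (π.subgroupMap_surjective S) ?_ ?_ ?_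
    · refine (Cores.pPrimeCore_coprime (p := 2) (G := ↥C)).coprime_dvd_left ?_
      have hk : f.ker = (pPrimeCore 2 ↥C).subgroupOf S := by
        ext x
        rw [MonoidHom.mem_ker, Subtype.ext_iff, mem_subgroupOf]
        exact QuotientGroup.eq_one_iff _
      rw [hk]
      exact card_comap_dvd_of_injective _ _ S.subtype_injective
    · obtain ⟨k, hk⟩ := hu2
      exact ⟨k, Subtype.ext hk⟩
    · set d : S.map π := f ⟨u, huS⟩ with hd
      by_cases hd1 : d = 1
      · rw [hd1]; exact one_mem _
      have hdD : d ∈ D.subgroupOf (S.map π) := by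
        rw [mem_subgroupOf]
        exact ⟨⟨π Y, mem_map_of_mem π (show Y ∈ K.subgroupOf C from hy)⟩, hπu.symm⟩
      refine Components.pComponent_le_pLayer (Components.component_isPComponent hDc ?_) hdD
      obtain ⟨k, hk⟩ := hu2
      have h1 : orderOf d ∣ 2 ^ k := by
        rw [orderOf_dvd_iff_pow_eq_one, hd, ← map_pow,
          show (⟨u, huS⟩ : S) ^ 2 ^ k = 1 from Subtype.ext hk, map_one]
      obtain ⟨j, -, hj⟩ := (Nat.dvd_prime_pow Nat.prime_two).mp h1
      have h2 : 2 ∣ orderOf d := by
        rcases j with - | j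
        · exact absurd (orderOf_eq_one_iff.mp hj) hd1
        · exact ⟨2 ^ j, by rw [hj, pow_succ]; ring⟩
      refine h2.trans ?_
      rw [← Subgroup.orderOf_mk d hdD]
      exact _root_.orderOf_dvd_natCard _
  have key : ∀ (S' : Subgroup C), S' = S → ∀ h : u ∈ S', (⟨u, h⟩ : S') ∈ pLayer 2 ↥S' := by
    rintro _ rfl h
    exact hmain
  have hSH : S = (C ⊓ centralizer ({e} : Set G)).subgroupOf C := centralizer_zpowers_subgroupOf he
  have hle : C ⊓ centralizer ({e} : Set G) ≤ C := inf_le_left
  have h := key _ hSH.symm (hSH ▸ huS)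
  have h2 := mem_map_of_mem (subgroupOfEquivOfLe hle).toMonoidHom h
  rw [Components.pLayer_map_equiv] at h2
  exact ⟨_, h2, rfl⟩

theorem mem_pLayerOf_of_centralizes {t e a : G} {K : Subgroup G}
    (hK : IsPComponentOf 2 K (centralizer ({t} : Set G))) (he2 : e * e = 1) (hte : t * e = e * t)
    (hcen : ∀ k ∈ K, e * k * e⁻¹ * k⁻¹ ∈ centralizerPPrimeCore 2 t)
    (ha : a ∈ K) (ha2 : IsPGroup 2 (zpowers a)) (hae : a * e = e * a) :
    a ∈ pLayerOf 2 (centralizer ({t} : Set G) ⊓ centralizer ({e} : Set G)) := by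
  set C := centralizer ({t} : Set G) with hC
  have he : e ∈ C := mem_centralizer_singleton_iff.mpr hte.symm
  have hP : IsPGroup 2 (zpowers e) := isPGroup_zpowers_two he2
  have hPK : ∀ x ∈ zpowers e, ∀ k ∈ K, x * k * x⁻¹ * k⁻¹ ∈ Tech.coreOf 2 C := by
    intro x hx k hk
    obtain ⟨m, rfl⟩ := mem_zpowers_iff.mp hx
    have h : e ^ (2 : ℤ) = 1 := by rw [zpow_two, he2]
    rcases Int.even_or_odd' m with ⟨j, rfl | rfl⟩
    · simp [zpow_mul, h]
    · have : e ^ (2 * j + 1) = e := by rw [zpow_add, zpow_mul, h, one_zpow, one_mul, zpow_one]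
      rw [this]
      exact hcen k hk
  obtain ⟨h1, -, -⟩ := Tech.pComponentOf_inf_centralizer hK hP (zpowers_le.mpr he) hPK
  rw [Components.centralizer_zpowers_eq] at h1
  have ha' : a ∈ Components.pGen 2 (K ⊓ centralizer ({e} : Set G)) :=
    Components.pGroup_le_pGen ha2
      (zpowers_le.mpr (mem_inf.mpr ⟨ha, mem_centralizer_singleton_iff.mpr hae⟩)) (mem_zpowers a)
  exact ⟨⟨a, h1.1 ha'⟩, Components.pComponent_le_pLayer h1.2 ha', rfl⟩

end Cfsg.Agent.Intrinsic
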