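import Cfsg.Agent.Intrinsic.Swap

/-!
An element of order at least four of `K` commuting with `z` normalizes `J`.
-/

set_option autoImplicit false
set_option linter.unusedSectionVars false

open Cfsg Subgroup

namespace Cfsg.Agent.Intrinsic

variable {G : Type*} [Group G] [Finite G] {J K P : Subgroup G} {z t y : G}

theorem mul_self_of_inverts {a b : G} (_ha : a * a = z) (hb : b * b = z) (hba : b⁻¹ * a * b = a⁻¹) :
    b * a * b⁻¹ = a⁻¹ ∧ a * b * (a * b) = z := by
  have h1 : b * a * b⁻¹ = a⁻¹ := by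
    have h : b * (b⁻¹ * a * b) * b⁻¹ = b * a⁻¹ * b⁻¹ := by rw [hba]
    calc b * a * b⁻¹ = (b * a⁻¹ * b⁻¹)⁻¹ := by group
      _ = (b * (b⁻¹ * a * b) * b⁻¹)⁻¹ := by rw [h]
      _ = a⁻¹ := by group
  refine ⟨h1, ?_⟩
  calc a * b * (a * b) = a * (b * a * b⁻¹) * (b * b) := by group
    _ = z := by rw [h1, mul_inv_cancel, one_mul, hb]

/-- `t` is not `g'⁻¹ g`. -/
theorem Frame.ne_swap (F : Frame J K P z t y) (hclK : ClassFour K t)
    (hy2 : y * y ∈ normalizer (J : Set G)) {g : G} (hgJ : g ∈ J) (hgP : g ∈ P) (hg2 : g ^ 2 = z) :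
    t ≠ (y⁻¹ * g * y)⁻¹ * g := by
  intro ht
  obtain ⟨b, hb, hb2, hbg⟩ := exists_inverting (F.hP.to_le inf_le_right)
    (Subgroup.mem_inf.mpr ⟨F.hJ.mem, F.hzP⟩) F.hJ.ord (fun v hv hv2 => F.hJ.uniq v hv.1 hv2) F.hnc
    (Subgroup.mem_inf.mpr ⟨hgJ, hgP⟩) hg2
  refine F.no_inverted hclK hy2 hb.1 hb.2 hb2 ?_
  set g1 := y⁻¹ * g * y with hg1
  have hgg : g * g = z := by rw [← pow_two, hg2]
  have hbb : b * b = z := by rw [← pow_two, hb2]
  have hg1P : g1 ∈ P := mul_mem (mul_mem (inv_mem F.hyP) hgP) F.hyP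
  have hc1 : Commute g g1 := comm_of_ne F.hP F.hJ.comp (F.compJ F.hyP) F.conj_ne.symm hgJ hgP
    (conj_mem_cg hgJ) hg1P
  have hc2 : Commute b g1 := comm_of_ne F.hP F.hJ.comp (F.compJ F.hyP) F.conj_ne.symm hb.1 hb.2
    (conj_mem_cg hgJ) hg1P
  have hg11 : g1 * g1 = z := by
    calc g1 * g1 = y⁻¹ * (g * g) * y := by rw [hg1]; group
      _ = z := by rw [hgg, mul_assoc, ← (comm_of_mem F.hPC F.hyP).eq]; group
  obtain ⟨h1, -⟩ := mul_self_of_inverts hgg hbb hbg
  have h2 : g * b * g⁻¹ = b⁻¹ := by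
    calc g * b * g⁻¹ = b * (b⁻¹ * g * b) * g⁻¹ := by group
      _ = b * (g * g)⁻¹ := by rw [hbg]; group
      _ = b * (b * b)⁻¹ := by rw [hgg, hbb]
      _ = b⁻¹ := by group
  calc t * b * t = g1⁻¹ * ((g * b) * g1⁻¹) * g := by rw [ht]; group
    _ = g1⁻¹ * (g1⁻¹ * (g * b)) * g := by rw [(hc1.mul_left hc2).inv_right.eq]
    _ = (g1 * g1)⁻¹ * (g * b * g⁻¹) * (g * g) := by group
    _ = z⁻¹ * b⁻¹ * z := by rw [hg11, hgg, h2]
    _ = b⁻¹ := by
        rw [mul_assoc, (comm_of_mem F.hPC (inv_mem hb.2)).eq]; group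

theorem Frame.z_normalizes (F : Frame J K P z t y) : z ∈ normalizer (K : Set G) := by
  by_contra hzK
  have hzt' : Commute z t := (comm_of_mem F.hPC F.tP).symm
  have hzy : Commute z y := (comm_of_mem F.hPC F.hyP).symm
  refine F.hy4 ?_
  have hmem : y ∈ cg K z := by
    have := conj_mem_cg (g := z) F.hyK
    rwa [mul_assoc, ← hzy.eq, inv_mul_cancel_left] at this
  rcases F.hK.eq_of_central F.hyK (two_of_mem F.hP F.hyP) (fun k hk => commutator_mem_core
    (F.compK hzt') F.hK.comp (fun h => hzK (cg_eq_iff.mp h)) hmem hk) with h | h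
  · rw [h, one_mul]
  · rw [h, F.hK.sq]

/-- The case in which `t` moves `J`. -/
theorem Frame.case_moves (F : Frame J K P z t y) (hy : y * y = t)
    (htJ : t ∉ normalizer (J : Set G)) : False := by
  have htt := F.hK.sq
  have ht' : t⁻¹ = t := inv_eq_of_mul_eq_one_right htt
  have hty : t * y ∉ normalizer (J : Set G) := fun h => htJ (by
    have h2 := mul_mem h h
    rw [show t * y * (t * y) = t by
      calc t * y * (t * y) = t * (y * t) * y := by group
        _ = t * (t * y) * y := by rw [F.ty.eq]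
        _ = t * t * (y * y) := by group
        _ = t := by rw [htt, hy, one_mul]] at h2
    exact h2)
  have hyi : y⁻¹ ∉ normalizer (J : Set G) := fun h => F.hyJ (inv_inv y ▸ inv_mem h)
  have d01 : (1 : G) * y⁻¹ ∉ normalizer (J : Set G) := by rwa [one_mul]
  have d02 : (1 : G) * t⁻¹ ∉ normalizer (J : Set G) := by rwa [one_mul, ht']
  have d03 : (1 : G) * (t * y)⁻¹ ∉ normalizer (J : Set G) := by
    rw [one_mul]; exact fun h => hty (inv_inv (t * y) ▸ inv_mem h)
  have d12 : y * t⁻¹ ∉ normalizer (J : Set G) := by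
    rwa [← hy, mul_inv_rev, mul_inv_cancel_left]
  have d13 : y * (t * y)⁻¹ ∉ normalizer (J : Set G) := by
    rwa [mul_inv_rev, mul_inv_cancel_left, ht']
  have d23 : t * (t * y)⁻¹ ∉ normalizer (J : Set G) := by
    rwa [F.ty.eq, mul_inv_rev, mul_inv_cancel_left]
  have hzy : Commute z y := (comm_of_mem F.hPC F.hyP).symm
  have cm : ∀ g g' : G, g ∈ P → g' ∈ P → g * g'⁻¹ ∉ normalizer (J : Set G) →
      ∀ u ∈ J ⊓ P, ∀ v ∈ J ⊓ P, Commute (g⁻¹ * u * g) (g'⁻¹ * v * g') :=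
    fun g g' hg hg' hd u hu v hv => comm_of_ne F.hP (F.compJ hg) (F.compJ hg')
      (fun e => hd (cg_eq_cg_iff.mp e)) (conj_mem_cg hu.1)
      (mul_mem (mul_mem (inv_mem hg) hu.2) hg) (conj_mem_cg hv.1)
      (mul_mem (mul_mem (inv_mem hg') hv.2) hg')
  have c01 : ∀ u ∈ J ⊓ P, ∀ v ∈ J ⊓ P, Commute u (y⁻¹ * v * y) := fun u hu v hv => by
    simpa using cm 1 y (one_mem _) F.hyP d01 u hu v hv
  have c02 : ∀ u ∈ J ⊓ P, ∀ v ∈ J ⊓ P, Commute u (t⁻¹ * v * t) := fun u hu v hv => by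
    simpa using cm 1 t (one_mem _) F.tP d02 u hu v hv
  have c03 : ∀ u ∈ J ⊓ P, ∀ v ∈ J ⊓ P, Commute u ((t * y)⁻¹ * v * (t * y)) := fun u hu v hv => by
    simpa using cm 1 (t * y) (one_mem _) (mul_mem F.tP F.hyP) d03 u hu v hv
  have c12 := cm y t F.hyP F.tP d12
  have c13 := cm y (t * y) F.hyP (mul_mem F.tP F.hyP) d13
  have c23 := cm t (t * y) F.tP (mul_mem F.tP F.hyP) d23
  let E : G → G := fun g => g * (t⁻¹ * g * t)
  let Fe : G → G := fun g => y⁻¹ * g * y * ((t * y)⁻¹ * g * (t * y))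
  have hFe : ∀ g, y⁻¹ * E g * y = Fe g := fun g => by simp only [E, Fe]; group
  have cEF : ∀ u ∈ J ⊓ P, ∀ v ∈ J ⊓ P, Commute (E u) (Fe v) := fun u hu v hv =>
    ((c01 u hu v hv).mul_right (c03 u hu v hv)).mul_left
      (((c12 v hv u hu).symm).mul_right (c23 u hu v hv))
  have hEE : ∀ g ∈ J ⊓ P, g ^ 2 = z → E g * E g = 1 := fun g hg hg2 => by
    have hgg : g * g = z := by rw [← pow_two, hg2]
    calc E g * E g = g * ((t⁻¹ * g * t) * g) * (t⁻¹ * g * t) := by simp only [E]; group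
      _ = g * (g * (t⁻¹ * g * t)) * (t⁻¹ * g * t) := by rw [(c02 g hg g hg).eq]
      _ = (g * g) * (t⁻¹ * (g * g) * t) := by group
      _ = 1 := by rw [hgg, mul_assoc t⁻¹, ← (comm_of_mem F.hPC F.tP).eq, inv_mul_cancel_left, F.hJ.sq]
  have hEt : ∀ g ∈ J ⊓ P, Commute (E g) t := fun g hg => by
    change E g * t = t * E g
    have hc := (c02 g hg g hg).eq
    simp only [E]
    rw [ht'] at hc ⊢
    calc g * (t * g * t) * t = g * (t * g) * (t * t) := by group
      _ = t * ((t * g * t) * g) := by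
          rw [htt, mul_one, ← mul_assoc t, ← mul_assoc t, ← mul_assoc t, htt, one_mul]; group
      _ = t * (g * (t * g * t)) := by rw [hc]
  -- every element of order four moves `K`
  have move : ∀ g ∈ J ⊓ P, g ^ 2 = z → E g ∉ normalizer (K : Set G) ∧
      Commute (Fe g * E g) y ∧ (E g)⁻¹ * y * E g = y * (Fe g * E g) ∧
      (Fe g * E g) * (Fe g * E g) = 1 := by
    intro g hg hg2
    have hgg : g * g = z := by rw [← pow_two, hg2]
    have hee := hEE g hg hg2
    have he' : (E g)⁻¹ = E g := inv_eq_of_mul_eq_one_right hee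
    have hye : (E g)⁻¹ * y * E g = y * (Fe g * E g) := by
      rw [he', ← hFe]; group
    have hcc : (Fe g * E g) * (Fe g * E g) = 1 := by
      calc (Fe g * E g) * (Fe g * E g) = Fe g * (E g * Fe g) * E g := by group
        _ = Fe g * (Fe g * E g) * E g := by rw [(cEF g hg g hg).eq]
        _ = (y⁻¹ * (E g * E g) * y) * (E g * E g) := by rw [← hFe]; group
        _ = 1 := by rw [hee]; group
    have hmemE : E g ∈ P :=
      mul_mem hg.2 (mul_mem (mul_mem (inv_mem F.tP) hg.2) F.tP)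
    have hmove : E g ∉ normalizer (K : Set G) := by
      intro hK'
      have hcK : Fe g * E g ∈ K := by
        have : y⁻¹ * ((E g)⁻¹ * y * E g) ∈ K :=
          mul_mem (inv_mem F.hyK) (mem_normalizer_conj F.hyK hK')
        rwa [hye, inv_mul_cancel_left] at this
      rcases F.hK.sq_eq_one hcK hcc with h | h
      · have hFE : Fe g = E g := by rw [← he', eq_inv_of_mul_eq_one_left h]
        have hgE : g = Fe g * (t⁻¹ * g * t)⁻¹ := by rw [hFE]; simp only [E]; group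
        rcases F.hJ.eq_of_commutes F.hP F.hnc F.hzP hg (fun b hb => by
          rw [hgE]
          exact (((c01 b hb g hg).mul_right (c03 b hb g hg)).mul_right (c02 b hb g hg).inv_right).eq)
          with h1 | h1
        · exact F.hJ.z_ne_one (by rw [← hgg, h1, one_mul])
        · exact F.hJ.z_ne_one (by rw [← hgg, h1, F.hJ.sq])
      · refine htJ ?_
        have hn : ∀ x ∈ P, x⁻¹ * g * x ∈ normalizer (J : Set G) := fun x hx =>
          normalizes_of_same F.hJ.comp (F.compJ hx) (conj_mem_cg hg.1)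
        rw [← h]
        exact mul_mem (mul_mem (hn y F.hyP) (hn _ (mul_mem F.tP F.hyP)))
          (mul_mem (le_normalizer hg.1) (hn t F.tP))
    refine ⟨hmove, ?_, hye, hcc⟩
    have h := F.commute_conj hmemE (hEt g hg) hmove
    rw [show Fe g * E g = y⁻¹ * ((E g)⁻¹ * y * E g) by rw [hye, inv_mul_cancel_left]]
    exact ((Commute.refl y).inv_right.mul_right h).symm
  obtain ⟨a, ha, ha2, -⟩ := exists_fixed_order_four (Q := J ⊓ P) (F.hP.to_le inf_le_right) le_rfl
    le_normalizer (Subgroup.mem_inf.mpr ⟨F.hJ.mem, F.hzP⟩) F.hJ.ord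
    (fun v hv hv2 => F.hJ.uniq v hv.1 hv2) F.hnc
  obtain ⟨b, hb, hb2, hba⟩ := exists_inverting (F.hP.to_le inf_le_right)
    (Subgroup.mem_inf.mpr ⟨F.hJ.mem, F.hzP⟩) F.hJ.ord (fun v hv hv2 => F.hJ.uniq v hv.1 hv2) F.hnc
    ha ha2
  have haa : a * a = z := by rw [← pow_two, ha2]
  have hbb : b * b = z := by rw [← pow_two, hb2]
  obtain ⟨hba', habab⟩ := mul_self_of_inverts haa hbb hba
  obtain ⟨nA, yA, eA, cA⟩ := move a ha ha2
  obtain ⟨nB, yB, eB, cB⟩ := move b hb hb2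
  obtain ⟨nC, yC, eC, -⟩ := move (a * b) (mul_mem ha hb) (by rw [pow_two, habab])
  have hzc : ∀ x ∈ P, Commute z x := fun x hx => (comm_of_mem F.hPC hx).symm
  have hbaz : b * a = a * b * z := by
    calc b * a = (b * a * b⁻¹) * b := by group
      _ = a⁻¹ * b := by rw [hba']
      _ = a * (a * a)⁻¹ * b := by group
      _ = a * b * z := by rw [haa, F.hJ.inv_eq, mul_assoc, (hzc b hb.2).eq, mul_assoc]
  have hEmul : E (a * b) = E a * E b := by
    simp only [E]
    calc a * b * (t⁻¹ * (a * b) * t) = a * (b * (t⁻¹ * a * t)) * (t⁻¹ * b * t) := by group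
      _ = a * ((t⁻¹ * a * t) * b) * (t⁻¹ * b * t) := by rw [(c02 b hb a ha).eq]
      _ = _ := by group
  have hEab : Commute (E a) (E b) := by
    have h2 : E b * E a = E (b * a) := by
      simp only [E]
      calc b * (t⁻¹ * b * t) * (a * (t⁻¹ * a * t)) = b * ((t⁻¹ * b * t) * a) * (t⁻¹ * a * t) := by group
        _ = b * (a * (t⁻¹ * b * t)) * (t⁻¹ * a * t) := by rw [(c02 a ha b hb).eq]
        _ = _ := by group
    change E a * E b = E b * E a
    rw [h2, ← hEmul, hbaz]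
    simp only [E]
    have hzt : Commute z t := hzc t F.tP
    have hzab : Commute z (t⁻¹ * (a * b) * t) :=
      hzc _ (mul_mem (mul_mem (inv_mem F.tP) (mul_mem ha.2 hb.2)) F.tP)
    symm
    calc a * b * z * (t⁻¹ * (a * b * z) * t) = a * b * z * (t⁻¹ * (a * b) * (z * t)) := by group
      _ = a * b * z * (t⁻¹ * (a * b) * (t * z)) := by rw [hzt.eq]
      _ = a * b * (z * (t⁻¹ * (a * b) * t)) * z := by group
      _ = a * b * ((t⁻¹ * (a * b) * t) * z) * z := by rw [hzab.eq]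
      _ = a * b * (t⁻¹ * (a * b) * t) * (z * z) := by group
      _ = _ := by rw [F.hJ.sq, mul_one]
  have hFmul : Fe (a * b) = Fe a * Fe b := by rw [← hFe, hEmul, ← hFe, ← hFe]; group
  have hFab : Commute (Fe a) (Fe b) := by
    change Fe a * Fe b = Fe b * Fe a
    calc Fe a * Fe b = y⁻¹ * (E a * E b) * y := by rw [← hFe, ← hFe]; group
      _ = y⁻¹ * (E b * E a) * y := by rw [hEab.eq]
      _ = Fe b * Fe a := by rw [← hFe, ← hFe]; group
  have hs : Fe a * E a * (Fe b * E b) * (Fe (a * b) * E (a * b)) = 1 := by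
    have e1 : Fe (a * b) * E (a * b) = (Fe a * E a) * (Fe b * E b) := by
      rw [hEmul, hFmul]
      calc Fe a * Fe b * (E a * E b) = Fe a * (Fe b * E a) * E b := by group
        _ = Fe a * (E a * Fe b) * E b := by rw [(cEF a ha b hb).eq]
        _ = _ := by group
    have hAB : Commute (Fe a * E a) (Fe b * E b) :=
      (hFab.mul_right (cEF b hb a ha).symm).mul_left ((cEF a ha b hb).mul_right hEab)
    rw [e1]
    calc Fe a * E a * (Fe b * E b) * (Fe a * E a * (Fe b * E b))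
        = Fe a * E a * ((Fe b * E b) * (Fe a * E a)) * (Fe b * E b) := by group
      _ = Fe a * E a * ((Fe a * E a) * (Fe b * E b)) * (Fe b * E b) := by rw [hAB.eq]
      _ = (Fe a * E a * (Fe a * E a)) * ((Fe b * E b) * (Fe b * E b)) := by group
      _ = 1 := by rw [cA, cB, one_mul]
  have hcen := F.four hy (hEt a ha) (hEt b hb) (hEt _ (mul_mem ha hb)) nA nB nC eA eB eC yA yB yC hs
  simp only [mul_one] at hcen
  rcases F.hK.eq_of_central (inv_mem F.hyK) (two_of_mem F.hP (inv_mem F.hyP)) hcen with h | h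
  · exact F.hy4 (by rw [inv_eq_one.mp h, one_mul])
  · exact F.hy4 (by rw [← inv_inv y, h, F.hK.inv_eq, F.hK.sq])

/-- The case in which `t` normalizes `J`. -/
theorem Frame.case_fixes (F : Frame J K P z t y) (hclJ : ClassFour J z) (hclK : ClassFour K t)
    (htJ : t ∈ normalizer (J : Set G)) (hy2 : y * y ∈ normalizer (J : Set G)) : False := by
  have htt := F.hK.sq
  have ht' : t⁻¹ = t := inv_eq_of_mul_eq_one_right htt
  have hzQ : z ∈ J ⊓ P := ⟨F.hJ.mem, F.hzP⟩
  have huQ : ∀ v ∈ J ⊓ P, orderOf v = 2 → v = z := fun v hv hv2 => F.hJ.uniq v hv.1 hv2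
  obtain ⟨a, ha, ha2, haT⟩ := exists_fixed_order_four (Q := J ⊓ P) (T := P ⊓ normalizer (J : Set G))
    (F.hP.to_le inf_le_left) (le_inf inf_le_right (inf_le_left.trans le_normalizer))
    (fun x hx => inf_normalizer_le_normalizer_inf (Subgroup.mem_inf.mpr
      ⟨hx.2, le_normalizer hx.1⟩)) hzQ F.hJ.ord huQ F.hnc
  obtain ⟨b, hb, hb2, hba⟩ := exists_inverting (F.hP.to_le inf_le_right) hzQ F.hJ.ord huQ F.hnc ha ha2
  have haa : a * a = z := by rw [← pow_two, ha2]
  have hbb : b * b = z := by rw [← pow_two, hb2]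
  obtain ⟨hba', habab⟩ := mul_self_of_inverts haa hbb hba
  have hat : Commute a t := by
    rcases haT t ⟨F.tP, htJ⟩ with h | h
    · exact (eq_mul_inv_iff_mul_eq.mp (by
        calc a = t * (t⁻¹ * a * t) * t⁻¹ := by group
          _ = t * a * t⁻¹ := by rw [h]))
    · exact (F.no_inverted hclK hy2 ha.1 ha.2 ha2 (by rwa [ht'] at h)).elim
  -- `t` also fixes `b`
  have hbt : Commute b t := by
    set d := b⁻¹ * (t * b * t) with hd
    have hdQ : d ∈ J ⊓ P := by
      refine Subgroup.mem_inf.mpr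
        ⟨mul_mem (inv_mem hb.1) ?_, mul_mem (inv_mem hb.2) (mul_mem (mul_mem F.tP hb.2) F.tP)⟩
      have := mem_normalizer_conj hb.1 htJ
      rwa [ht'] at this
    have hdd : d * d = 1 := by
      by_contra hne
      obtain ⟨k, hk⟩ := F.hJ.exists_pow hdQ.1 (two_of_mem F.hP hdQ.2) hne
      have htd : t * d * t⁻¹ = d⁻¹ := by
        rw [ht', hd, mul_inv_rev, inv_inv, mul_inv_rev, mul_inv_rev, ht']
        calc t * (b⁻¹ * (t * b * t)) * t = t * b⁻¹ * t * b * (t * t) := by group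
          _ = t * (b⁻¹ * t) * b := by rw [htt]; group
      have htd0 : t * d ^ k * t⁻¹ = (d ^ k)⁻¹ := by rw [← conj_pow, htd, inv_pow]
      have hda : Commute d a := by
        have h1 : d⁻¹ * a * d = a := by
          calc d⁻¹ * a * d = (t * b * t)⁻¹ * (b * a * b⁻¹) * (t * b * t) := by rw [hd]; group
            _ = t⁻¹ * b⁻¹ * (t⁻¹ * a⁻¹ * t) * b * t := by rw [hba']; group
            _ = t⁻¹ * (b⁻¹ * a * b)⁻¹ * t := by
                rw [show t⁻¹ * a⁻¹ * t = a⁻¹ by rw [mul_assoc, hat.inv_left.eq, inv_mul_cancel_left]]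
                group
            _ = a := by rw [hba, inv_inv, mul_assoc, hat.eq, inv_mul_cancel_left]
        calc d * a = d * (d⁻¹ * a * d) := by rw [h1]
          _ = a * d := by group
      have hsq : d ^ k * a * (d ^ k * a) = 1 := by
        calc d ^ k * a * (d ^ k * a) = d ^ k * (a * d ^ k) * a := by group
          _ = d ^ k * (d ^ k * a) * a := by rw [(hda.pow_left k).eq]
          _ = (d ^ k) ^ 2 * (a * a) := by rw [pow_two (d ^ k)]; group
          _ = 1 := by rw [hk, haa, F.hJ.sq]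
      have hfix : Commute (d ^ k) t := by
        rcases F.hJ.sq_eq_one (mul_mem (pow_mem hdQ.1 k) ha.1) hsq with h | h
        · rw [eq_inv_of_mul_eq_one_left h]; exact hat.inv_left
        · rw [eq_mul_inv_of_mul_eq h]
          exact (show Commute z t from (comm_of_mem F.hPC F.tP).symm).mul_left hat.inv_left
      rw [← hfix.eq, mul_inv_cancel_right] at htd0
      exact F.hJ.z_ne_one (by rw [← hk, pow_two]; exact mul_eq_one_iff_eq_inv.mpr htd0)
    have htbt : t * b * t = b * d := by rw [hd]; group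
    rcases F.hJ.sq_eq_one hdQ.1 hdd with h | h
    · rw [h, mul_one] at htbt
      calc b * t = t * b * t * t := by rw [htbt]
        _ = t * b := by rw [mul_assoc, htt, mul_one]
    · refine (F.no_inverted hclK hy2 hb.1 hb.2 hb2 ?_).elim
      rw [htbt, h, ← hbb]
      symm
      apply inv_eq_of_mul_eq_one_right
      calc b * (b * (b * b)) = (b * b) * (b * b) := by group
        _ = 1 := by rw [hbb, F.hJ.sq]
  have habJ : a * b ∈ J ⊓ P := mul_mem ha hb
  have hab2 : (a * b) ^ 2 = z := by rw [pow_two, habab]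
  obtain ⟨nA, yA, eA, hy⟩ := (F.fixed hy2 ha.1 ha.2 ha2 hat).resolve_left
    (F.ne_swap hclK hy2 ha.1 ha.2 ha2)
  obtain ⟨nB, yB, eB, -⟩ := (F.fixed hy2 hb.1 hb.2 hb2 hbt).resolve_left
    (F.ne_swap hclK hy2 hb.1 hb.2 hb2)
  obtain ⟨nC, yC, eC, -⟩ := (F.fixed hy2 habJ.1 habJ.2 hab2 (hat.mul_left hbt)).resolve_left
    (F.ne_swap hclK hy2 habJ.1 habJ.2 hab2)
  set a1 := y⁻¹ * a * y with ha1
  set b1 := y⁻¹ * b * y with hb1
  have hzy : Commute z y := (comm_of_mem F.hPC F.hyP).symm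
  have ha11 : a1 * a1 = z := by
    calc a1 * a1 = y⁻¹ * (a * a) * y := by rw [ha1]; group
      _ = z := by rw [haa, mul_assoc, hzy.eq, inv_mul_cancel_left]
  have hb11 : b1 * b1 = z := by
    calc b1 * b1 = y⁻¹ * (b * b) * y := by rw [hb1]; group
      _ = z := by rw [hbb, mul_assoc, hzy.eq, inv_mul_cancel_left]
  have hc : ∀ u ∈ J ⊓ P, ∀ v ∈ J ⊓ P, Commute u (y⁻¹ * v * y) := fun u hu v hv =>
    comm_of_ne F.hP F.hJ.comp (F.compJ F.hyP) F.conj_ne.symm hu.1 hu.2 (conj_mem_cg hv.1)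
      (mul_mem (mul_mem (inv_mem F.hyP) hv.2) F.hyP)
  have hs : a1⁻¹ * a * (b1⁻¹ * b) * ((y⁻¹ * (a * b) * y)⁻¹ * (a * b)) = z := by
    have e1 : (y⁻¹ * (a * b) * y)⁻¹ = b1⁻¹ * a1⁻¹ := by rw [ha1, hb1]; group
    rw [e1]
    calc a1⁻¹ * a * (b1⁻¹ * b) * (b1⁻¹ * a1⁻¹ * (a * b))
        = a1⁻¹ * (a * b1⁻¹) * b * (b1⁻¹ * a1⁻¹) * (a * b) := by group
      _ = a1⁻¹ * (b1⁻¹ * a) * b * (b1⁻¹ * a1⁻¹) * (a * b) := by rw [(hc a ha b hb).inv_right.eq]
      _ = a1⁻¹ * b1⁻¹ * ((a * b) * (b1⁻¹ * a1⁻¹)) * (a * b) := by group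
      _ = a1⁻¹ * b1⁻¹ * ((b1⁻¹ * a1⁻¹) * (a * b)) * (a * b) := by
          rw [((hc _ habJ b hb).inv_right.mul_right (hc _ habJ a ha).inv_right).eq]
      _ = a1⁻¹ * (b1 * b1)⁻¹ * a1⁻¹ * (a * b * (a * b)) := by group
      _ = a1⁻¹ * z * a1⁻¹ * z := by rw [hb11, habab, F.hJ.inv_eq]
      _ = (a1 * a1)⁻¹ * (z * z) := by
          have hz1 : Commute a1⁻¹ z :=
            comm_of_mem F.hPC (inv_mem (mul_mem (mul_mem (inv_mem F.hyP) ha.2) F.hyP))
          rw [mul_assoc a1⁻¹ z, ← hz1.eq]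
          group
      _ = z := by rw [ha11, F.hJ.sq, mul_one, F.hJ.inv_eq]
  have hcen := F.four hy hat hbt (hat.mul_left hbt) nA nB nC eA eB eC yA yB yC hs
  -- the same configuration with `J` and `K` exchanged
  obtain ⟨P2, hP2, hle, hP2C, hnc2⟩ := exists_two_group t (F.hP.to_le (inf_le_left : P ⊓ Cz t ≤ P))
    inf_le_right
  have hzt' : Commute z t := (comm_of_mem F.hPC F.tP).symm
  have hyP2 : y ∈ P2 := hle ⟨F.hyP, F.hK.le F.hyK⟩
  have hzP2 : z ∈ P2 := hle ⟨F.hzP, mem_Cz.mpr hzt'.eq⟩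
  have htP2 : t ∈ P2 := hle ⟨F.tP, F.hK.le F.hK.mem⟩
  obtain ⟨k, hk, hk2, hky⟩ := exists_inverting (hP2.to_le inf_le_right)
    (Subgroup.mem_inf.mpr ⟨F.hK.mem, htP2⟩) F.hK.ord (fun v hv hv2 => F.hK.uniq v hv.1 hv2)
    (hnc2 K F.hK.comp) (Subgroup.mem_inf.mpr ⟨F.hyK, hyP2⟩) (by rw [pow_two, hy])
  have hkk : k * k = t := by rw [← pow_two, hk2]
  have huk : y⁻¹ * z * k * (y⁻¹ * z)⁻¹ * k⁻¹ = 1 :=
    eq_one_of_core (two_of_mem hP2 (mul_mem (mul_mem (mul_mem (mul_mem (inv_mem hyP2) hzP2) hk.2)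
      (inv_mem (mul_mem (inv_mem hyP2) hzP2))) (inv_mem hk.2))) (hcen k hk.1)
  obtain ⟨hky', -⟩ := mul_self_of_inverts (z := t) hy hkk hky
  have hzk : z * k * z = k⁻¹ := by
    calc z * k * z = y * (y⁻¹ * z * k * (y⁻¹ * z)⁻¹ * k⁻¹) * k * y⁻¹ * (z * z) := by group
      _ = y * k * y⁻¹ := by rw [huk, F.hJ.sq]; group
      _ = k * (k⁻¹ * y * k) * y⁻¹ := by group
      _ = k * (y * y)⁻¹ := by rw [hky]; group
      _ = k⁻¹ := by rw [hy, ← hkk]; group
  have F' : Frame K J P2 t z a :=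
    ⟨F.hK, F.hJ, F.hzt.symm, hP2, hP2C, hnc2 K F.hK.comp, htP2, hle ⟨ha.2, mem_Cz.mpr hat.eq⟩,
      ha.1, by rw [haa]; exact F.hJ.z_ne_one, nA⟩
  exact F'.no_inverted hclJ (by rw [haa]; exact F.z_normalizes) hk.1 hk.2 hk2 hzk

/-- Part (i). -/
theorem part_one {J K : Subgroup G} {z t : G} (hJ : Comp J z) (hK : Comp K t)
    (hclJ : ClassFour J z) (hclK : ClassFour K t) (hzt : z ≠ t) :
    ∀ y ∈ K, IsPGroup 2 (zpowers y) → y * y ≠ 1 → Commute y z → y ∈ normalizer (J : Set G) := by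
  suffices H : ∀ n, ∀ y ∈ K, IsPGroup 2 (zpowers y) → y * y ≠ 1 → Commute y z → orderOf y = n →
      y ∈ normalizer (J : Set G) from fun y hy h2 h4 hc => H _ y hy h2 h4 hc rfl
  intro n
  induction n using Nat.strong_induction_on with
  | _ n ih =>
  intro y hyK hy2 hy4 hyz hn
  by_contra hyJ
  have hzN : zpowers z ≤ normalizer (zpowers y : Set G) := by
    refine le_trans (zpowers_le.mpr ?_) (centralizer_le_normalizer _)
    rw [zpowers_eq_closure, centralizer_closure, mem_centralizer_singleton_iff]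
    exact hyz.symm.eq
  obtain ⟨P, hP, hSP, hPC, hnc⟩ := exists_two_group z
    ((IsPGroup.of_card (n := 1) (by rw [Nat.card_zpowers, hJ.ord, pow_one]) :
      IsPGroup 2 (zpowers z)).to_sup_of_normal_right' hy2 hzN)
    (sup_le (zpowers_le.mpr (hJ.le hJ.mem)) (zpowers_le.mpr (mem_Cz.mpr hyz.eq)))
  have F : Frame J K P z t y := ⟨hJ, hK, hzt, hP, hPC, hnc J hJ.comp,
    hSP (mem_sup_left (mem_zpowers z)), hSP (mem_sup_right (mem_zpowers y)), hyK, hy4, hyJ⟩
  -- induction: a square of order at least four normalizes `J`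
  have hstep : (y * y) * (y * y) ≠ 1 → y * y ∈ normalizer (J : Set G) := fun h => by
    refine ih (orderOf (y * y)) ?_ _ (mul_mem hyK hyK)
      (two_of_mem hP (mul_mem F.hyP F.hyP)) h (hyz.mul_left hyz) rfl
    rw [← hn, ← pow_two, orderOf_pow]
    have h2 : 2 ∣ orderOf y := by
      obtain ⟨k, hk⟩ := IsPGroup.iff_orderOf.mp hy2 ⟨y, mem_zpowers y⟩
      rw [Subgroup.orderOf_mk] at hk
      rcases k with _ | k
      · have hy1 : y = 1 := orderOf_eq_one_iff.mp (by simpa using hk)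
        exact absurd (by rw [hy1, one_mul]) hy4
      · rw [hk, pow_succ]; exact dvd_mul_left 2 _
    rw [Nat.gcd_eq_right h2]
    exact Nat.div_lt_self (orderOf_pos y) (by omega)
  obtain ⟨k, hk⟩ := F.exists_t
  by_cases htJ : t ∈ normalizer (J : Set G)
  · refine F.case_fixes hclJ hclK htJ ?_
    by_cases h : (y * y) * (y * y) = 1
    · exact ((hK.sq_eq_one (mul_mem hyK hyK) h).resolve_left hy4) ▸ htJ
    · exact hstep h
  · refine F.case_moves ?_ htJ
    by_contra h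
    refine htJ (hk ▸ pow_mem (hstep fun h2 => h ?_) k)
    exact (hK.sq_eq_one (mul_mem hyK hyK) h2).resolve_left hy4

end Cfsg.Agent.Intrinsic
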