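import Cfsg.Agent.Tech.PumpUp
import Cfsg.Agent.S1301
import Cfsg.Prelude.Def_ClassificationStages

/-!
# The small-centralizer case of the intrinsic components lemma (S1315)

If the only 2-elements of `K` centralized by the involution `z` square to one, then the 2-layer of
`C(t) ∩ C(z)` centralizes `K` modulo `O(C(t))`.
-/

set_option autoImplicit false

open Cfsg Subgroup
open scoped commutatorElement

namespace Cfsg.Agent.Intrinsic

variable {G : Type*} [Group G] [Finite G]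

/-- L-balance inside a subgroup `C`, for a 2-element `z` of `C`. -/
private theorem pLayerOf_inf_centralizer_le {C : Subgroup G} {z : G} (hz : z ∈ C)
    (hz2 : IsPGroup 2 (zpowers (⟨z, hz⟩ : C))) :
    pLayerOf 2 (C ⊓ centralizer ({z} : Set G)) ≤ pLayerOf 2 C := by
  set zC : C := ⟨z, hz⟩ with hzC
  set H' : Subgroup C := centralizer ((zpowers zC : Subgroup C) : Set C) with hH'
  have hmem : ∀ g : C, g ∈ H' ↔ (g : G) ∈ C ⊓ centralizer ({z} : Set G) := fun g => by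
    rw [hH', mem_centralizer_iff, Subgroup.mem_inf, mem_centralizer_singleton_iff]
    constructor
    · intro h
      exact ⟨g.2, (congrArg Subtype.val (h zC (mem_zpowers zC))).symm⟩
    · rintro ⟨-, h⟩ a ⟨k, rfl⟩
      have h' : Commute zC g := Subtype.ext h.symm
      exact (h'.zpow_left k).eq
  set H : Subgroup G := C ⊓ centralizer ({z} : Set G) with hH
  have hHC : H ≤ C := inf_le_left
  let e : H ≃* H' :=
    { toFun := fun h => ⟨⟨(h : G), hHC h.2⟩, (hmem _).2 h.2⟩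
      invFun := fun g => ⟨((g : C) : G), (hmem _).1 g.2⟩
      left_inv := fun h => rfl
      right_inv := fun g => rfl
      map_mul' := fun a b => rfl }
  rintro x ⟨h, hh, rfl⟩
  have h1 : e h ∈ pLayer 2 H' := by
    rw [← Components.pLayer_map_equiv e]
    exact ⟨h, hh, rfl⟩
  exact ⟨_, S1301.result (zpowers zC) hz2 ⟨e h, h1, rfl⟩, rfl⟩

theorem centralizes_of_small {t z x : G} {K : Subgroup G}
    (hK : IsPComponentOf 2 K (centralizer ({t} : Set G))) (htK : t ∈ K) (ht : orderOf t = 2)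
    (huniq : ∀ u ∈ K, orderOf u = 2 → u = t)
    (hz2 : z * z = 1) (htz : t * z = z * t) (hzK : z ∈ normalizer (K : Set G))
    (hsmall : ∀ a ∈ K, IsPGroup 2 (zpowers a) → a * z = z * a → a ^ 2 = 1)
    (hx : x ∈ pLayerOf 2 (centralizer ({t} : Set G) ⊓ centralizer ({z} : Set G))) :
    ∀ k ∈ K, x * k * x⁻¹ * k⁻¹ ∈ centralizerPPrimeCore 2 t := by
  haveI : Fact (Nat.Prime 2) := ⟨Nat.prime_two⟩
  set C := centralizer ({t} : Set G) with hC
  set M := pLayerOf 2 (C ⊓ centralizer ({z} : Set G)) with hMdef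
  set π := QuotientGroup.mk' (pPrimeCore 2 ↥C) with hπ
  have hzC : z ∈ C := mem_centralizer_singleton_iff.mpr htz.symm
  have hzp : IsPGroup 2 (zpowers z) := by
    have : orderOf z ∣ 2 ^ 1 := orderOf_dvd_of_pow_eq_one (by rw [pow_one, pow_two, hz2])
    obtain ⟨k, -, hk⟩ := (Nat.dvd_prime_pow Nat.prime_two).1 this
    exact IsPGroup.iff_card.mpr ⟨k, by rw [Nat.card_zpowers, hk]⟩
  have hzpC : IsPGroup 2 (zpowers (⟨z, hzC⟩ : C)) := fun g => by
    obtain ⟨k, hk⟩ := g.2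
    refine ⟨1, Subtype.ext (Subtype.ext ?_)⟩
    have : ((((g ^ 2 ^ 1 : zpowers (⟨z, hzC⟩ : C)) : C)) : G) = (z ^ k) ^ 2 := by
      simp [← hk]
    rw [this, ← zpow_natCast (z ^ k) 2, ← zpow_mul, mul_comm, zpow_mul, zpow_natCast, pow_two, hz2,
      one_zpow]
    rfl
  have hMC : M ≤ C := (map_subtype_le _).trans inf_le_left
  set Kb := Tech.bar 2 C K with hKb
  have hKbc : IsComponent Kb := Tech.bar_component hK
  set φ := Kb.normalizerMonoidHom with hφ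
  set CK := centralizer (Kb : Set (↥C ⧸ pPrimeCore 2 ↥C)) with hCK
  set zb := π ⟨z, hzC⟩ with hzb
  have hzbK : zb ∈ normalizer (Kb : Set (↥C ⧸ pPrimeCore 2 ↥C)) := by
    refine le_normalizer_map π ⟨⟨z, hzC⟩, mem_normalizer_iff.mpr fun k => ?_, rfl⟩
    exact mem_normalizer_iff.mp hzK (k : G)
  -- the layer of `C ∩ C(z)` in `C / O(C)`
  set Mb := Tech.bar 2 C M with hMb
  have hMbE : Mb ≤ layer (↥C ⧸ pPrimeCore 2 ↥C) := by
    rw [← Components.pLayer_map_eq]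
    refine map_mono fun g hg => ?_
    obtain ⟨g', hg', he⟩ := pLayerOf_inf_centralizer_le hzC hzpC (mem_subgroupOf.mp hg)
    rwa [show g' = g from Subtype.ext he] at hg'
  have hMb' : ⁅Mb, Mb⁆ = Mb := by
    rw [hMb, Tech.bar, ← Subgroup.map_commutator]
    congr 1
    apply map_injective C.subtype_injective
    rw [Subgroup.map_commutator, map_subgroupOf_eq_of_le hMC, hMdef, pLayerOf,
      ← Subgroup.map_commutator, Components.pLayer_commutator_self]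
  have hMbz : ∀ m ∈ Mb, zb * m = m * zb := by
    rintro _ ⟨g, hg, rfl⟩
    rw [hzb, ← map_mul, ← map_mul]
    congr 1
    refine Subtype.ext ?_
    exact (mem_centralizer_singleton_iff.mp
      ((map_subtype_le _) (mem_subgroupOf.mp hg)).2).symm
  have hEN : layer (↥C ⧸ pPrimeCore 2 ↥C) ≤ normalizer (Kb : Set (↥C ⧸ pPrimeCore 2 ↥C)) :=
    Components.layer_le_normalizer_component hKbc
  set D := Kb ⊓ centralizer ({zb} : Set (↥C ⧸ pPrimeCore 2 ↥C)) with hD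
  have hDN : D ≤ normalizer (CK : Set (↥C ⧸ pPrimeCore 2 ↥C)) :=
    inf_le_left.trans (le_normalizer.trans (Components.normalizer_le_normalizer_centralizer Kb))
  -- `Mb` acts on `Kb` as elements of `Kb` centralized by `z`
  have hMD : Mb ≤ D ⊔ CK := by
    rw [← hMb', commutator_le]
    intro l₁ hl₁ l₂ hl₂
    obtain ⟨v₁, hv₁, hc₁⟩ := Tech.exists_inner_of_mem_layer hKbc (hMbE hl₁)
    obtain ⟨v₂, hv₂, hc₂⟩ := Tech.exists_inner_of_mem_layer hKbc (hMbE hl₂)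
    have hz : ∀ l ∈ Mb, ∀ v ∈ Kb, v⁻¹ * l ∈ CK →
        v⁻¹ * (zb * v * zb⁻¹) ∈ Kb ⊓ CK := fun l hl v hv hc => by
      refine ⟨Kb.mul_mem (Kb.inv_mem hv) ((mem_normalizer_iff.mp hzbK v).mp hv), ?_⟩
      have hlb : l * zb = zb * l := (hMbz l hl).symm
      have hc' := (mem_normalizer_iff.mp
        (Components.normalizer_le_normalizer_centralizer Kb hzbK) _).mp (inv_mem hc)
      have e : v⁻¹ * (zb * v * zb⁻¹) = (v⁻¹ * l) * (zb * (v⁻¹ * l)⁻¹ * zb⁻¹) := by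
        calc v⁻¹ * (zb * v * zb⁻¹) = v⁻¹ * (zb * l) * l⁻¹ * v * zb⁻¹ := by group
          _ = v⁻¹ * (l * zb) * l⁻¹ * v * zb⁻¹ := by rw [hlb]
          _ = _ := by group
      rw [e]
      exact mul_mem hc hc'
    have h1 := hz l₁ hl₁ v₁ hv₁ hc₁
    have h2 := hz l₂ hl₂ v₂ hv₂ hc₂
    set z₁ := v₁⁻¹ * (zb * v₁ * zb⁻¹) with hz₁
    set z₂ := v₂⁻¹ * (zb * v₂ * zb⁻¹) with hz₂
    have hc1 : ∀ u ∈ Kb, Commute z₁ u := fun u hu => (mem_centralizer_iff.mp h1.2 u hu).symm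
    have hc2 : ∀ u ∈ Kb, Commute z₂ u := fun u hu => (mem_centralizer_iff.mp h2.2 u hu).symm
    have hfix : zb * ⁅v₁, v₂⁆ * zb⁻¹ = ⁅v₁, v₂⁆ := by
      calc zb * ⁅v₁, v₂⁆ * zb⁻¹ = ⁅v₁ * z₁, v₂ * z₂⁆ := by
            rw [hz₁, hz₂]; simp only [commutatorElement_def]; group
        _ = v₁ * (z₁ * (v₂ * z₂)) * z₁⁻¹ * v₁⁻¹ * z₂⁻¹ * v₂⁻¹ := by
            simp only [commutatorElement_def]; group
        _ = v₁ * ((v₂ * z₂) * z₁) * z₁⁻¹ * v₁⁻¹ * z₂⁻¹ * v₂⁻¹ := by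
            rw [(hc1 _ (mul_mem hv₂ h2.1)).eq]
        _ = v₁ * v₂ * (z₂ * v₁⁻¹) * z₂⁻¹ * v₂⁻¹ := by group
        _ = v₁ * v₂ * (v₁⁻¹ * z₂) * z₂⁻¹ * v₂⁻¹ := by rw [(hc2 _ (inv_mem hv₁)).eq]
        _ = ⁅v₁, v₂⁆ := by simp only [commutatorElement_def]; group
    have hW : ⁅v₁, v₂⁆ ∈ D := by
      refine ⟨?_, mem_centralizer_singleton_iff.mpr ?_⟩
      · rw [commutatorElement_def]
        exact Kb.mul_mem (Kb.mul_mem (Kb.mul_mem hv₁ hv₂) (Kb.inv_mem hv₁)) (Kb.inv_mem hv₂)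
      · calc ⁅v₁, v₂⁆ * zb = zb * ⁅v₁, v₂⁆ * zb⁻¹ * zb := by rw [hfix]
          _ = _ := by group
    have hker : ∀ g, φ g = 1 ↔ (g : ↥C ⧸ pPrimeCore 2 ↥C) ∈ CK := fun g => by
      rw [← MonoidHom.mem_ker, hφ, normalizerMonoidHom_ker, mem_subgroupOf]
    have e1 : φ ⟨v₁, le_normalizer hv₁⟩ = φ ⟨l₁, hEN (hMbE hl₁)⟩ := by
      rw [← inv_mul_eq_one, ← map_inv, ← map_mul]; exact (hker _).mpr hc₁
    have e2 : φ ⟨v₂, le_normalizer hv₂⟩ = φ ⟨l₂, hEN (hMbE hl₂)⟩ := by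
      rw [← inv_mul_eq_one, ← map_inv, ← map_mul]; exact (hker _).mpr hc₂
    have e3 : ⁅v₁, v₂⁆⁻¹ * ⁅l₁, l₂⁆ ∈ CK := by
      have h := (hker (⁅(⟨v₁, le_normalizer hv₁⟩ : ↥(normalizer (Kb : Set _))),
        (⟨v₂, le_normalizer hv₂⟩ : ↥(normalizer (Kb : Set _)))⁆⁻¹ *
        ⁅(⟨l₁, hEN (hMbE hl₁)⟩ : ↥(normalizer (Kb : Set _))),
        (⟨l₂, hEN (hMbE hl₂)⟩ : ↥(normalizer (Kb : Set _)))⁆)).mp (by
          rw [map_mul, map_inv, map_commutatorElement, map_commutatorElement, e1, e2,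
            inv_mul_cancel])
      simpa [commutatorElement_def] using h
    have := mul_mem (mem_sup_left (T := CK) hW) (mem_sup_right (S := D) e3)
    rwa [mul_inv_cancel_left] at this
  -- two-elements of `M` centralize `Kb`
  have hgen : ∀ g : G, ∀ (hg : g ∈ M), (∃ j : ℕ, g ^ 2 ^ j = 1) → π ⟨g, hMC hg⟩ ∈ CK := by
    intro g hg hj
    obtain ⟨j, hj⟩ := hj
    obtain ⟨w, hw, c, hc, hwc⟩ := Coprime.exists_mul_of_mem_sup hDN
      (hMD (Tech.mem_bar hg (hMC hg)))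
    obtain ⟨k, hk, hkw⟩ := hw.1
    have hzfix : π (⟨z, hzC⟩ * k * ⟨z, hzC⟩⁻¹) = π k := by
      rw [map_mul, map_mul, map_inv, hkw, ← hzb, ← mem_centralizer_singleton_iff.mp hw.2,
        mul_inv_cancel_right]
    have hNA : zpowers z ≤ normalizer ((K ⊓ Tech.coreOf 2 C : Subgroup G) : Set G) :=
      zpowers_le.mpr (inf_normalizer_le_normalizer_inf
        ⟨hzK, Tech.le_normalizer_coreOf C hzC⟩)
    have hcop : (Nat.card (zpowers z)).Coprime (Nat.card ↥(K ⊓ Tech.coreOf 2 C)) := by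
      obtain ⟨n, hn⟩ := IsPGroup.iff_card.mp hzp
      rw [hn]
      exact (((Tech.coreOf_coprime C).coprime_dvd_left
        (card_dvd_of_le inf_le_right)).pow_right n).symm
    have hfixk : ∀ a ∈ zpowers z, (k : G)⁻¹ * a * k * a⁻¹ ∈ K ⊓ Tech.coreOf 2 C := by
      have hone : (k : G)⁻¹ * z * k * z⁻¹ ∈ K ⊓ Tech.coreOf 2 C := by
        refine ⟨?_, ?_⟩
        · have h2 := mul_mem (inv_mem (show (k : G) ∈ K from hk))
            ((mem_normalizer_iff.mp hzK _).mp hk)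
          simpa [mul_assoc] using h2
        · have h2 := (QuotientGroup.eq (s := pPrimeCore 2 ↥C)).mp hzfix.symm
          have h3 := (Tech.mem_coreOf (k⁻¹ * (⟨z, hzC⟩ * k * ⟨z, hzC⟩⁻¹) : C).2).mpr h2
          simpa [mul_assoc] using h3
      intro a ha
      obtain ⟨n, rfl⟩ := mem_zpowers_iff.mp ha
      rcases Int.even_or_odd n with ⟨r, rfl⟩ | ⟨r, rfl⟩
      · rw [← two_mul, zpow_mul, show z ^ (2 : ℤ) = 1 by rw [zpow_two, hz2], one_zpow]
        simp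
      · rw [zpow_add_one, zpow_mul, show z ^ (2 : ℤ) = 1 by rw [zpow_two, hz2], one_zpow, one_mul]
        exact hone
    obtain ⟨cc, hcc, hkcc⟩ := Coprime.exists_fixed_mem_coset hNA hcop (Or.inl inferInstance)
      (inf_le_left : K ⊓ Tech.coreOf 2 C ≤ K) (show (k : G) ∈ K from hk) hfixk
    have hccC : cc ∈ C := hK.1 hcc.1
    have hccw : π ⟨cc, hccC⟩ = w := by
      rw [← hkw]
      refine (QuotientGroup.eq.mpr ?_).symm
      exact (Tech.mem_coreOf (k⁻¹ * ⟨cc, hccC⟩ : C).2).mp hkcc.2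
    -- odd power of the fixed lift
    obtain ⟨a, o, ho, hord⟩ := Nat.exists_eq_two_pow_mul_odd (orderOf_pos cc).ne'
    have ha2 : (cc ^ o) ^ 2 ^ a = 1 := by
      rw [← pow_mul, mul_comm, ← hord, pow_orderOf_eq_one]
    have hcz : cc * z = z * cc :=
      (mem_centralizer_iff.mp hcc.2 z (mem_zpowers z)).symm
    have hsq : (cc ^ o) ^ 2 = 1 := by
      refine hsmall _ (K.pow_mem hcc.1 o) ?_ ((show Commute cc z from hcz).pow_left o).eq
      obtain ⟨i, -, hi⟩ := (Nat.dvd_prime_pow Nat.prime_two).1 (orderOf_dvd_of_pow_eq_one ha2)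
      exact IsPGroup.iff_card.mpr ⟨i, by rw [Nat.card_zpowers, hi]⟩
    have hco : π ⟨cc ^ o, C.pow_mem hccC o⟩ ∈ CK := by
      have hcase : cc ^ o = 1 ∨ cc ^ o = t := by
        rcases (Nat.dvd_prime Nat.prime_two).1 (orderOf_dvd_of_pow_eq_one hsq) with h | h
        · exact Or.inl (orderOf_eq_one_iff.1 h)
        · exact Or.inr (huniq _ (K.pow_mem hcc.1 o) h)
      refine mem_centralizer_iff.mpr ?_
      rintro _ ⟨u, -, rfl⟩
      rw [← map_mul, ← map_mul]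
      congr 1
      refine Subtype.ext ?_
      show (u : G) * cc ^ o = cc ^ o * u
      rcases hcase with h | h
      · rw [h, mul_one, one_mul]
      · rw [h]; exact mem_centralizer_singleton_iff.mp u.2
    have hker : ∀ g, φ g = 1 ↔ (g : ↥C ⧸ pPrimeCore 2 ↥C) ∈ CK := fun g => by
      rw [← MonoidHom.mem_ker, hφ, normalizerMonoidHom_ker, mem_subgroupOf]
    have hgN : π ⟨g, hMC hg⟩ ∈ normalizer (Kb : Set (↥C ⧸ pPrimeCore 2 ↥C)) :=
      hEN (hMbE (Tech.mem_bar hg (hMC hg)))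
    have heq : φ ⟨π ⟨g, hMC hg⟩, hgN⟩ = φ ⟨w, le_normalizer hw.1⟩ := by
      refine (inv_mul_eq_one.mp ?_).symm
      rw [← map_inv, ← map_mul, hker]
      show w⁻¹ * π ⟨g, hMC hg⟩ ∈ CK
      rw [hwc, inv_mul_cancel_left]; exact hc
    have h1 : φ ⟨π ⟨g, hMC hg⟩, hgN⟩ ^ o = 1 := by
      rw [heq, ← map_pow, hker]
      show w ^ o ∈ CK
      rw [← hccw, ← map_pow]
      exact hco
    have h2 : φ ⟨π ⟨g, hMC hg⟩, hgN⟩ ^ 2 ^ j = 1 := by
      rw [← map_pow, hker]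
      show π ⟨g, hMC hg⟩ ^ 2 ^ j ∈ CK
      rw [← map_pow, show (⟨g, hMC hg⟩ : C) ^ 2 ^ j = 1 from Subtype.ext hj, map_one]
      exact one_mem _
    have h3 : orderOf (φ ⟨π ⟨g, hMC hg⟩, hgN⟩) ∣ Nat.gcd o (2 ^ j) :=
      Nat.dvd_gcd (orderOf_dvd_of_pow_eq_one h1) (orderOf_dvd_of_pow_eq_one h2)
    rw [Nat.Coprime.pow_right j ((Nat.coprime_two_right).mpr ho), Nat.dvd_one,
      orderOf_eq_one_iff, hker] at h3
    exact h3
  -- conclusion
  have hall : M ≤ (CK.comap π).map C.subtype := by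
    have hM2 : Components.pGen 2 M = M := by
      rw [hMdef, pLayerOf, ← Components.pGen_map_surjective, Components.pGen_pLayer]
    conv_lhs => rw [← hM2]
    rw [Components.pGen, closure_le]
    rintro g ⟨hg, hj⟩
    exact ⟨⟨g, hMC hg⟩, hgen g hg hj, rfl⟩
  intro k hk
  obtain ⟨g, hg, hgx⟩ := hall hx
  subst hgx
  have hkC : k ∈ C := hK.1 hk
  have h1 := mem_centralizer_iff.mp hg _ (Tech.mem_bar hk hkC)
  have h2 : π (g * ⟨k, hkC⟩ * g⁻¹ * ⟨k, hkC⟩⁻¹) = 1 := by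
    rw [map_mul, map_mul, map_mul, map_inv, map_inv, ← h1, mul_inv_cancel_right, mul_inv_cancel]
  exact (Tech.mk_eq_one_iff (g * ⟨k, hkC⟩ * g⁻¹ * ⟨k, hkC⟩⁻¹ : C).2).mp h2

end Cfsg.Agent.Intrinsic
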