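import Cfsg.Agent.Intrinsic.Basic
import Cfsg.Agent.Intrinsic.Layer
import Cfsg.Agent.Intrinsic.Small
import Cfsg.Agent.Tech.PumpUp

/-!
# Part (ii) of the intrinsic components lemma (S1315)

If `z` normalises `K` and only involutions of `K` commute with it, then `t` normalises `J`.
-/

set_option autoImplicit false
set_option linter.unusedSectionVars false

open Cfsg Subgroup

namespace Cfsg.Agent.Intrinsic

variable {G : Type*} [Group G] [Finite G]

theorem pLayerOf_map_equiv (φ : G ≃* G) (H : Subgroup G) :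
    (pLayerOf 2 H).map φ.toMonoidHom = pLayerOf 2 (H.map φ.toMonoidHom) := by
  have : Fact (Nat.Prime 2) := ⟨Nat.prime_two⟩
  unfold pLayerOf
  have h := congrArg (Subgroup.map (Subgroup.subtype _))
    (Components.pLayer_map_equiv (p := 2) (φ.subgroupMap H))
  rw [Subgroup.map_map] at h
  rw [Subgroup.map_map]
  exact h

/-- No two elements of the 2-layer square to an element of order four of `J`, modulo the
centraliser of `J`, the one inverting the other. -/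
theorem false_of_pair {J : Subgroup G} {z g q a b : G} (hJ : Comp J z) (hg : g ∈ J)
    (hg2 : g * g = z) (hq : q ∈ Cz z) (hqJ : ∀ k ∈ J, q * k * q⁻¹ * k⁻¹ ∈ Oz z)
    (ha : a ∈ pLayerOf 2 (Cz z)) (hb : b ∈ pLayerOf 2 (Cz z))
    (ha2 : a * a = g * q) (hb2 : b * b = g * q) (hba : b⁻¹ * a * b = a⁻¹) : False := by
  have : Fact (Nat.Prime 2) := ⟨Nat.prime_two⟩
  set π := QuotientGroup.mk' (pPrimeCore 2 ↥(Cz z)) with hπ
  set Jb := Tech.bar 2 (Cz z) J with hJb
  have hcomp : IsComponent Jb := Tech.bar_component hJ.comp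
  have hgC : g ∈ Cz z := hJ.le hg
  set gb := π ⟨g, hgC⟩ with hgb
  set qb := π ⟨q, hq⟩ with hqb
  have hgJ : gb ∈ Jb := Tech.mem_bar hg hgC
  set Z := centralizer (Jb : Set (↥(Cz z) ⧸ pPrimeCore 2 ↥(Cz z))) with hZ
  have hcom : ∀ u ∈ Jb, ∀ m ∈ Z, Commute u m := fun u hu m hm => mem_centralizer_iff.mp hm u hu
  have hqZ : qb ∈ Z := by
    rw [hZ, mem_centralizer_iff]
    intro u hu
    obtain ⟨⟨v, hvC⟩, hv, rfl⟩ := hu
    have h1 := (Tech.mk_eq_one_iff (p := 2) (mul_mem (mul_mem (mul_mem hq hvC) (inv_mem hq))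
      (inv_mem hvC))).mpr (hqJ v (mem_subgroupOf.mp hv))
    have h2 : qb * π ⟨v, hvC⟩ * qb⁻¹ * (π ⟨v, hvC⟩)⁻¹ = 1 := by
      rw [hqb, ← map_inv, ← map_inv, ← map_mul, ← map_mul, ← map_mul]
      exact h1
    rw [← commutatorElement_def, commutatorElement_eq_one_iff_mul_comm] at h2
    exact h2.symm
  obtain ⟨a', ha', rfl⟩ := ha
  obtain ⟨b', hb', rfl⟩ := hb
  have hlay : ∀ u ∈ pLayer 2 ↥(Cz z), π u ∈ layer (↥(Cz z) ⧸ pPrimeCore 2 ↥(Cz z)) := fun u hu => by
    rw [← Components.pLayer_map_eq]; exact mem_map_of_mem _ hu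
  obtain ⟨i, hi, hm⟩ := Tech.exists_inner_of_mem_layer hcomp (hlay a' ha')
  obtain ⟨j, hj, hn⟩ := Tech.exists_inner_of_mem_layer hcomp (hlay b' hb')
  set m := i⁻¹ * π a' with hmdef
  set n := j⁻¹ * π b' with hndef
  have hA : π a' = i * m := by rw [hmdef, mul_inv_cancel_left]
  have hB : π b' = j * n := by rw [hndef, mul_inv_cancel_left]
  have eA : (i * m) * (i * m) = gb * qb := by
    rw [← hA, hgb, hqb, ← map_mul, ← map_mul]
    exact congrArg π (Subtype.ext ha2)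
  have eB : (j * n) * (j * n) = gb * qb := by
    rw [← hB, hgb, hqb, ← map_mul, ← map_mul]
    exact congrArg π (Subtype.ext hb2)
  have eI : (j * n)⁻¹ * (i * m) * (j * n) = (i * m)⁻¹ := by
    rw [← hA, ← hB, ← map_inv, ← map_inv, ← map_mul, ← map_mul]
    exact congrArg π (Subtype.ext hba)
  rw [(hcom i hi m hm).symm.mul_mul_mul_comm i m] at eA
  rw [(hcom j hj n hn).symm.mul_mul_mul_comm j n] at eB
  have hζ : gb⁻¹ * (i * i) = qb * (m * m)⁻¹ :=
    calc gb⁻¹ * (i * i) = gb⁻¹ * ((i * i) * (m * m)) * (m * m)⁻¹ := by group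
      _ = qb * (m * m)⁻¹ := by rw [eA]; group
  have hζ' : gb⁻¹ * (j * j) = qb * (n * n)⁻¹ :=
    calc gb⁻¹ * (j * j) = gb⁻¹ * ((j * j) * (n * n)) * (n * n)⁻¹ := by group
      _ = qb * (n * n)⁻¹ := by rw [eB]; group
  set ζ := gb⁻¹ * (i * i) with hζdef
  set ζ' := gb⁻¹ * (j * j) with hζ'def
  have hζJ : ζ ∈ Jb := mul_mem (inv_mem hgJ) (mul_mem hi hi)
  have hζZ : ζ ∈ Z := hζ ▸ mul_mem hqZ (inv_mem (mul_mem hm hm))
  have hζ'Z : ζ' ∈ Z := hζ' ▸ mul_mem hqZ (inv_mem (mul_mem hn hn))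
  have hjg : Commute j gb := by
    have e : gb = (j * j) * ζ'⁻¹ := by rw [hζ'def]; group
    rw [e]
    exact ((Commute.refl j).mul_right (Commute.refl j)).mul_right (hcom j hj _ hζ'Z).inv_right
  set w := i * (j⁻¹ * i * j) with hwdef
  have hwJ : w ∈ Jb := mul_mem hi (mul_mem (mul_mem (inv_mem hj) hi) hj)
  have hw : w = m⁻¹ * (n⁻¹ * m * n)⁻¹ := by
    have hu : j⁻¹ * i * j ∈ Jb := mul_mem (mul_mem (inv_mem hj) hi) hj
    have h1 : (j * n)⁻¹ * (i * m) * (j * n) = (j⁻¹ * i * j) * (n⁻¹ * m * n) :=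
      calc (j * n)⁻¹ * (i * m) * (j * n) = n⁻¹ * (j⁻¹ * i * (m * j)) * n := by group
        _ = n⁻¹ * (j⁻¹ * i * j) * (m * n) := by rw [← (hcom j hj m hm).eq]; group
        _ = (j⁻¹ * i * j) * n⁻¹ * (m * n) := by rw [(hcom _ hu n⁻¹ (inv_mem hn)).symm.eq]
        _ = _ := by group
    rw [eI] at h1
    calc w = i * ((j⁻¹ * i * j) * (n⁻¹ * m * n)) * (n⁻¹ * m * n)⁻¹ := by rw [hwdef]; group
      _ = _ := by rw [← h1, (hcom i hi m hm).mul_inv]; group
  have hwZ : w ∈ Z := hw ▸ mul_mem (inv_mem hm)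
    (inv_mem (mul_mem (mul_mem (inv_mem hn) hm) hn))
  -- `j` centralises `i ^ 2`
  have hji : Commute j (i * i) := by
    have e : i * i = gb * ζ := by rw [hζdef]; group
    rw [e]; exact hjg.mul_right (hcom j hj _ hζZ)
  have h4 : (i * i) * (i * i) = w * w := by
    have e1 : (j⁻¹ * i * j) * (j⁻¹ * i * j) = i * i :=
      calc (j⁻¹ * i * j) * (j⁻¹ * i * j) = j⁻¹ * ((i * i) * j) := by group
        _ = i * i := by rw [← hji.eq]; group
    calc (i * i) * (i * i) = i * i * ((j⁻¹ * i * j) * (j⁻¹ * i * j)) := by rw [e1]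
      _ = i * w * (j⁻¹ * i * j) := by rw [hwdef]; group
      _ = w * i * (j⁻¹ * i * j) := by rw [(hcom i hi w hwZ).eq]
      _ = w * w := by rw [hwdef]; group
  have hzb : gb * gb = (w * ζ⁻¹) * (w * ζ⁻¹) := by
    have e : i * i = gb * ζ := by rw [hζdef]; group
    rw [e, (hcom gb hgJ ζ hζZ).symm.mul_mul_mul_comm gb ζ] at h4
    rw [(hcom w hwJ ζ⁻¹ (inv_mem hζZ)).symm.mul_mul_mul_comm w ζ⁻¹, ← h4]
    group
  -- lift the central element
  obtain ⟨k₀, hk₀, hk₀e⟩ := (mul_mem hwJ (inv_mem hζJ) : w * ζ⁻¹ ∈ Jb)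
  obtain ⟨e2, r, hr, hord⟩ := Nat.exists_eq_two_pow_mul_odd (orderOf_pos k₀).ne'
  set k := k₀ ^ r with hk
  have hkJ : (k : G) ∈ J := by
    rw [← mem_subgroupOf]; exact pow_mem hk₀ r
  have hkZ : π k ∈ Z := by
    rw [hk, map_pow, hπ, hk₀e]
    exact pow_mem (mul_mem hwZ (inv_mem hζZ)) r
  have hkcen : ∀ u ∈ J, (k : G) * u * (k : G)⁻¹ * u⁻¹ ∈ Oz z := by
    intro u hu
    refine (Tech.mk_eq_one_iff (p := 2) (mul_mem (mul_mem (mul_mem k.2 (hJ.le hu)) (inv_mem k.2))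
      (inv_mem (hJ.le hu)))).mp ?_
    have h : Commute (π ⟨u, hJ.le hu⟩) (π k) :=
      hcom _ (Tech.mem_bar (p := 2) hu (hJ.le hu)) _ hkZ
    have h2 : π k * π ⟨u, hJ.le hu⟩ * (π k)⁻¹ * (π ⟨u, hJ.le hu⟩)⁻¹ = 1 := by
      rw [← h.eq]; group
    rw [← map_inv, ← map_inv, ← map_mul, ← map_mul, ← map_mul] at h2
    exact h2
  have hk2 : IsPGroup 2 (zpowers (k : G)) := by
    have h : (k : G) ^ 2 ^ e2 = 1 := by
      rw [← SubgroupClass.coe_pow, hk, ← pow_mul, mul_comm, ← hord, pow_orderOf_eq_one]; rfl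
    obtain ⟨c, -, hc⟩ := (Nat.dvd_prime_pow Nat.prime_two).mp (orderOf_dvd_of_pow_eq_one h)
    exact IsPGroup.of_card (n := c) (by rw [Nat.card_zpowers, hc])
  have hkk : (k : G) * k = 1 := by
    rcases hJ.eq_of_central hkJ hk2 hkcen with h | h
    · rw [h, one_mul]
    · rw [h, hJ.sq]
  have hz1 : π ⟨z, hJ.le hJ.mem⟩ = 1 := by
    have hgg : gb * gb = π ⟨z, hJ.le hJ.mem⟩ := by
      rw [hgb, ← map_mul]; exact congrArg π (Subtype.ext hg2)
    obtain ⟨c, hc⟩ := hr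
    have h1 : π k * π k = 1 := by
      rw [← map_mul, show k * k = 1 from Subtype.ext hkk, map_one]
    rw [hk, map_pow, ← pow_add, ← two_mul, pow_mul, pow_two, hπ, hk₀e, ← hzb] at h1
    rw [hgg, hc, pow_succ, pow_mul, pow_two, ← map_mul,
      show (⟨z, hJ.le hJ.mem⟩ : ↥(Cz z)) * ⟨z, hJ.le hJ.mem⟩ = 1 from Subtype.ext hJ.sq,
      map_one, one_pow, one_mul] at h1
    exact h1
  exact hJ.z_ne_one (eq_one_of_core (IsPGroup.of_card (n := 1)
    (by rw [Nat.card_zpowers, hJ.ord, pow_one])) ((Tech.mk_eq_one_iff (p := 2) _).mp hz1))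

theorem part_two {J K : Subgroup G} {z t : G} (hJ : Comp J z) (hK : Comp K t) (hzt : z ≠ t)
    (hzK : z ∈ normalizer (K : Set G))
    (hsmall : ∀ a ∈ K, IsPGroup 2 (zpowers a) → a * z = z * a → a ^ 2 = 1) :
    t ∈ normalizer (J : Set G) := by
  have : Fact (Nat.Prime 2) := ⟨Nat.prime_two⟩
  by_contra htJ
  have htz : Commute t z := by
    have hmem : z * t * z⁻¹ ∈ K := (mem_normalizer_iff.mp hzK t).mp hK.mem
    have e : z * t * z⁻¹ = t := hK.uniq _ hmem (by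
      rw [show z * t * z⁻¹ = (MulAut.conj z) t from rfl, MulEquiv.orderOf_eq, hK.ord])
    show t * z = z * t
    conv_lhs => rw [← e]
    group
  have hzz : IsPGroup 2 (zpowers z) :=
    IsPGroup.of_card (n := 1) (by rw [Nat.card_zpowers, hJ.ord, pow_one])
  have htt : IsPGroup 2 (zpowers t) :=
    IsPGroup.of_card (n := 1) (by rw [Nat.card_zpowers, hK.ord, pow_one])
  have hN : zpowers z ≤ normalizer (zpowers t : Set G) := by
    refine le_trans (zpowers_le.mpr ?_) (centralizer_le_normalizer _)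
    rw [zpowers_eq_closure, centralizer_closure, mem_centralizer_singleton_iff]
    exact htz.symm.eq
  obtain ⟨P, hP, hSP, hPC, hnc⟩ := exists_two_group z (hzz.to_sup_of_normal_right' htt hN)
    (sup_le (zpowers_le.mpr (hJ.le hJ.mem)) (zpowers_le.mpr (mem_Cz.mpr htz.eq)))
  have hzP : z ∈ P := hSP (mem_sup_left (mem_zpowers z))
  have htP : t ∈ P := hSP (mem_sup_right (mem_zpowers t))
  have hzc : ∀ u ∈ P, Commute u z := fun u hu => mem_Cz.mp (hPC hu)
  obtain ⟨g, hgJP, hg2, -⟩ := exists_fixed_order_four (T := J ⊓ P) (hP.to_le inf_le_right) le_rfl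
    le_normalizer (mem_inf.mpr ⟨hJ.mem, hzP⟩) hJ.ord (fun u hu h => hJ.uniq u hu.1 h)
    (hnc J hJ.comp)
  have hgg : g * g = z := by rw [← pow_two, hg2]
  have hgJ : g ∈ J := hgJP.1
  have hgP : g ∈ P := hgJP.2
  have htinv : t⁻¹ = t := hK.inv_eq
  have hcompt : IsPComponentOf 2 (cg J t) (Cz z) := by
    have h := isPComponentOf_cg hJ.comp t
    have e : t⁻¹ * z * t = z := by rw [mul_assoc, ← htz.eq, inv_mul_cancel_left]
    rwa [e] at h
  have hne : J ≠ cg J t := fun h => htJ (cg_eq_iff.mp h.symm)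
  set g2 := t * g * t with hg2def
  have hg2J : g2 ∈ cg J t := by
    have h := conj_mem_cg (g := t) hgJ
    rwa [htinv] at h
  have hg2P : g2 ∈ P := mul_mem (mul_mem htP hgP) htP
  have hgg2 : Commute g g2 := comm_of_ne hP hJ.comp hcompt hne hgJ hgP hg2J hg2P
  set e := g * g2 with hedef
  have hmem := diag_mem_pLayerOf (t := z) (e := t) (y := g) hJ.comp hK.sq htz.symm.eq htJ hgJ
    (two_of_mem hP hgP) hgg2.eq
  have heP : e ∈ P := mul_mem hgP hg2P
  have hecen : ∀ k ∈ K, e * k * e⁻¹ * k⁻¹ ∈ Oz t :=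
    centralizes_of_small hK.comp hK.mem hK.ord hK.uniq hJ.sq htz.eq hzK hsmall
      (by rw [inf_comm]; exact hmem)
  have het : Commute e t := mem_Cz.mp (map_subtype_le _ hmem).2
  have hg2g2 : g2 * g2 = z := by
    calc g2 * g2 = t * g * (t * t) * g * t := by rw [hg2def]; group
      _ = t * (g * g) * t := by rw [hK.sq]; group
      _ = z := by rw [hgg, htz.eq, mul_assoc, hK.sq, mul_one]
  have hee : e * e = 1 := by
    rw [hedef, hgg2.symm.mul_mul_mul_comm g g2, hgg, hg2g2, hJ.sq]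
  have hge : Commute g e := (Commute.refl g).mul_right hgg2
  have hconj : g⁻¹ * t * g = t * e * z := by
    have e1 : t * g⁻¹ * t = g2 * z := by
      have h3 : g2⁻¹ = g2 * z := by
        apply inv_eq_of_mul_eq_one_right
        rw [← mul_assoc, hg2g2, hJ.sq]
      rw [← h3, hg2def, mul_inv_rev, mul_inv_rev, htinv]; group
    calc g⁻¹ * t * g = (t * t) * g⁻¹ * t * g := by rw [hK.sq, one_mul]
      _ = t * (t * g⁻¹ * t) * g := by group
      _ = t * (g2 * (z * g)) := by rw [e1]; group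
      _ = t * (g2 * (g * z)) := by rw [(hzc g hgP).eq]
      _ = t * (g * g2) * z := by rw [hgg2.eq]; group
  have hconj' : g * t * g⁻¹ = t * e * z := by
    calc g * t * g⁻¹ = (g * g) * (g⁻¹ * t * g) * (g * g)⁻¹ := by group
      _ = t * e * z := by
        rw [hconj, hgg, ← (hzc (t * e * z) (mul_mem (mul_mem htP heP) hzP)).eq,
          mul_inv_cancel_right]
  -- inside `C(t)`
  have hS : P ⊓ Cz t ≤ Cz t := inf_le_right
  obtain ⟨P2, hP2, hSP2, hP2C, hnc2⟩ := exists_two_group t (hP.to_le inf_le_left) hS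
  have htP2 : t ∈ P2 := hSP2 ⟨htP, hK.le hK.mem⟩
  have hzP2 : z ∈ P2 := hSP2 ⟨hzP, mem_Cz.mpr htz.symm.eq⟩
  have heP2 : e ∈ P2 := hSP2 ⟨heP, mem_Cz.mpr het.eq⟩
  have heK : e ∈ normalizer (K : Set G) :=
    Tech.mem_normalizer_of_mem_centralizerModCore hK.comp (mem_Cz.mpr het.eq) hecen
  set R := K ⊓ P2 with hR
  have hRn : ∀ x : G, x ∈ normalizer (K : Set G) → x ∈ P2 → x ∈ normalizer (R : Set G) := by
    intro x hx hx2
    exact inf_normalizer_le_normalizer_inf ⟨hx, le_normalizer hx2⟩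
  obtain ⟨a, haR, ha2, hafix⟩ := exists_fixed_order_four (Q := R) (T := P2 ⊓ normalizer (R : Set G))
    (hP2.to_le inf_le_left) (le_inf inf_le_right le_normalizer) inf_le_right
    (mem_inf.mpr ⟨hK.mem, htP2⟩) hK.ord (fun u hu h => hK.uniq u hu.1 h) (hnc2 K hK.comp)
  have haa : a * a = t := by rw [← pow_two, ha2]
  have haz : z * a * z = a⁻¹ := by
    have h := hafix z ⟨hzP2, hRn z hzK hzP2⟩
    rw [hJ.inv_eq] at h
    refine h.resolve_left fun h' => hK.z_ne_one ?_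
    rw [← haa, ← pow_two]
    refine hsmall a haR.1 (two_of_mem hP2 haR.2) ?_
    calc a * z = (z * a * z) * z := by rw [h']
      _ = z * a := by rw [mul_assoc _ z z, hJ.sq, mul_one]
  obtain ⟨b, hbR, hb2, hba⟩ := exists_inverting (Q := R) (hP2.to_le inf_le_right)
    (mem_inf.mpr ⟨hK.mem, htP2⟩) hK.ord (fun u hu h => hK.uniq u hu.1 h) (hnc2 K hK.comp) haR ha2
  have hce : ∀ u ∈ R, u * e = e * u := by
    intro u hu
    have h1 : e * u * e⁻¹ * u⁻¹ ∈ P2 :=
      mul_mem (mul_mem (mul_mem heP2 hu.2) (inv_mem heP2)) (inv_mem hu.2)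
    have h2 := eq_one_of_core (two_of_mem hP2 h1) (hecen u hu.1)
    calc u * e = (e * u * e⁻¹ * u⁻¹) * u * e := by rw [h2, one_mul]
      _ = e * u := by group
  set x := g⁻¹ * a * g with hx
  have hxt : x⁻¹ * t * x = e * z := by
    have hat : Commute a t := mem_Cz.mp (hP2C haR.2)
    have hae : Commute a e := hce a haR
    have e1 : a⁻¹ * z * a = t * z := by
      calc a⁻¹ * z * a = a⁻¹ * (z * a * z) * z⁻¹ := by group
        _ = (a * a)⁻¹ * z⁻¹ := by rw [haz]; group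
        _ = t * z := by rw [haa, htinv, hJ.inv_eq]
    calc x⁻¹ * t * x = g⁻¹ * (a⁻¹ * (g * t * g⁻¹) * a) * g := by rw [hx]; group
      _ = g⁻¹ * (a⁻¹ * (t * e) * z * a) * g := by rw [hconj']; group
      _ = g⁻¹ * ((t * e) * (a⁻¹ * z * a)) * g := by
          rw [(hat.mul_right hae).inv_left.eq]; group
      _ = g⁻¹ * (t * (e * t) * z) * g := by rw [e1]; group
      _ = g⁻¹ * ((t * t) * e * z) * g := by rw [het.eq]; group
      _ = g⁻¹ * g * (e * z) := by
          rw [hK.sq, one_mul, mul_assoc, ← (hge.mul_right (hzc g hgP)).eq, ← mul_assoc]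
      _ = e * z := by rw [inv_mul_cancel, one_mul]
  have hxe : x⁻¹ * e * x = e := by
    have hc : Commute x e := (hge.inv_left.mul_left (hce a haR : Commute a e)).mul_left hge
    rw [mul_assoc, ← hc.eq, inv_mul_cancel_left]
  have hmap : (Cz t ⊓ Cz e).map (MulAut.conj x⁻¹).toMonoidHom = Cz z ⊓ Cz e := by
    rw [Subgroup.map_inf _ _ _ (MulAut.conj x⁻¹).injective, Cz_conj, Cz_conj, hxt, hxe]
    ext u
    simp only [mem_inf, mem_Cz]
    constructor
    · rintro ⟨h1, h2⟩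
      refine ⟨?_, h2⟩
      have h3 : Commute u (e * (e * z)) := Commute.mul_right h2 h1
      rwa [← mul_assoc, hee, one_mul] at h3
    · rintro ⟨h1, h2⟩
      exact ⟨Commute.mul_right h2 h1, h2⟩
  have hlay : ∀ u ∈ R, x⁻¹ * u * x ∈ pLayerOf 2 (Cz z) := by
    intro u hu
    have h := mem_pLayerOf_of_centralizes hK.comp hee het.symm.eq hecen hu.1
      (two_of_mem hP2 hu.2) (hce u hu)
    have h2 : x⁻¹ * u * x ∈ (pLayerOf 2 (Cz t ⊓ Cz e)).map (MulAut.conj x⁻¹).toMonoidHom :=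
      ⟨u, h, by simp⟩
    rw [pLayerOf_map_equiv, hmap] at h2
    exact pLayerOf_inf_le hee (hzc e heP).symm.eq h2
  have hsq : ∀ u : G, u ^ 2 = t → (x⁻¹ * u * x) * (x⁻¹ * u * x) = g * (g2 * z) := by
    intro u hu
    calc (x⁻¹ * u * x) * (x⁻¹ * u * x) = x⁻¹ * (u * u) * x := by group
      _ = g * (g2 * z) := by rw [← pow_two, hu, hxt, hedef, mul_assoc]
  refine false_of_pair hJ hgJ hgg (q := g2 * z) (mul_mem (hPC hg2P) (hPC hzP)) ?_ (hlay a haR)
    (hlay b hbR) (hsq a ha2) (hsq b hb2) ?_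
  · intro k hk
    have h := commutator_mem_core hcompt hJ.comp hne.symm hg2J hk
    have hkz : Commute z k := (mem_Cz.mp (hJ.le hk) : Commute k z).symm
    have e : g2 * z * k * (g2 * z)⁻¹ * k⁻¹ = g2 * k * g2⁻¹ * k⁻¹ :=
      calc g2 * z * k * (g2 * z)⁻¹ * k⁻¹ = g2 * (z * k) * z⁻¹ * g2⁻¹ * k⁻¹ := by group
        _ = g2 * (k * z) * z⁻¹ * g2⁻¹ * k⁻¹ := by rw [hkz.eq]
        _ = _ := by group
    rw [e]; exact h
  · calc (x⁻¹ * b * x)⁻¹ * (x⁻¹ * a * x) * (x⁻¹ * b * x) = x⁻¹ * (b⁻¹ * a * b) * x := by group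
      _ = (x⁻¹ * a * x)⁻¹ := by rw [hba]; group

end Cfsg.Agent.Intrinsic
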