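import Cfsg.Agent.Intrinsic.Basic

/-!
An element `y` of order at least four of `K` commuting with `z`, moving `J`: how the
order four elements of a Sylow 2-subgroup of `J` act on `K`.
-/

set_option autoImplicit false
set_option linter.unusedSectionVars false

open Cfsg Subgroup

namespace Cfsg.Agent.Intrinsic

variable {G : Type*} [Group G] [Finite G]

theorem comm_of_mem {z : G} {P : Subgroup G} (hPC : P ≤ Cz z) {u : G} (hu : u ∈ P) :
    Commute u z := mem_Cz.mp (hPC hu)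

/-- The data shared by the lemmas below. -/
structure Frame (J K P : Subgroup G) (z t y : G) : Prop where
  hJ : Comp J z
  hK : Comp K t
  hzt : z ≠ t
  hP : IsPGroup 2 P
  hPC : P ≤ Cz z
  hnc : ¬ IsCyclic ↥(J ⊓ P)
  hzP : z ∈ P
  hyP : y ∈ P
  hyK : y ∈ K
  hy4 : y * y ≠ 1
  hyJ : y ∉ normalizer (J : Set G)

variable {J K P : Subgroup G} {z t y : G}

theorem Frame.exists_t (F : Frame J K P z t y) : ∃ k : ℕ, t = (y * y) ^ k := by
  obtain ⟨k, hk⟩ := F.hK.exists_pow F.hyK (two_of_mem F.hP F.hyP) F.hy4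
  refine ⟨k, ?_⟩
  rw [← hk, ← pow_two, ← pow_mul, ← pow_mul, Nat.mul_comm]

theorem Frame.tP (F : Frame J K P z t y) : t ∈ P := by
  obtain ⟨k, hk⟩ := F.exists_t
  rw [hk]; exact pow_mem (mul_mem F.hyP F.hyP) k

theorem Frame.ty (F : Frame J K P z t y) : Commute t y := by
  obtain ⟨k, hk⟩ := F.exists_t
  rw [hk]; exact ((Commute.refl y).mul_left (Commute.refl y)).pow_left k

theorem Frame.conj_ne (F : Frame J K P z t y) : cg J y ≠ J := fun h => F.hyJ (cg_eq_iff.mp h)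

theorem Frame.compJ (F : Frame J K P z t y) {g : G} (hg : g ∈ P) :
    IsPComponentOf 2 (cg J g) (Cz z) := by
  have h := isPComponentOf_cg F.hJ.comp g
  have e : g⁻¹ * z * g = z := by rw [mul_assoc, ← (comm_of_mem F.hPC hg).eq]; group
  rwa [e] at h

theorem Frame.compK (F : Frame J K P z t y) {g : G} (hg : Commute g t) :
    IsPComponentOf 2 (cg K g) (Cz t) := by
  have h := isPComponentOf_cg F.hK.comp g
  have e : g⁻¹ * t * g = t := by rw [mul_assoc, ← hg.eq]; group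
  rwa [e] at h

/-- An element of `J ∩ P` also lying in a conjugate component is central. -/
theorem Frame.eq_of_two (F : Frame J K P z t y) {c g : G} (hg : g ∈ P) (hne : cg J g ≠ J)
    (hcJ : c ∈ J) (hcP : c ∈ P) (hcg : c ∈ cg J g) : c = 1 ∨ c = z :=
  F.hJ.eq_of_commutes F.hP F.hnc F.hzP ⟨hcJ, hcP⟩ fun _ hb =>
    comm_of_ne F.hP F.hJ.comp (F.compJ hg) (Ne.symm hne) hb.1 hb.2 hcg hcP

/-- `y` and a conjugate in another component of `C(t)` commute. -/
theorem Frame.commute_conj (F : Frame J K P z t y) {e : G} (heP : e ∈ P) (het : Commute e t)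
    (he : e ∉ normalizer (K : Set G)) : Commute y (e⁻¹ * y * e) := by
  refine comm_of_ne (P := P ⊓ Cz t) (F.hP.to_le inf_le_left) F.hK.comp (F.compK het)
    (fun h => he (cg_eq_iff.mp h.symm)) F.hyK (Subgroup.mem_inf.mpr ⟨F.hyP, F.hK.le F.hyK⟩)
    (conj_mem_cg F.hyK)
    (Subgroup.mem_inf.mpr ⟨mul_mem (mul_mem (inv_mem heP) F.hyP) heP, ?_⟩)
  rw [mem_Cz]
  exact ((het.inv_left.mul_left (mem_Cz.mp (F.hK.le F.hyK))).mul_left het).eq

/-- If `e` moves `K` and fixes `y²` then `y` has order four. -/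
theorem Frame.sq_eq (F : Frame J K P z t y) {e : G} (het : Commute e t)
    (he : e ∉ normalizer (K : Set G)) (hey : e⁻¹ * (y * y) * e = y * y) : y * y = t := by
  have hmem : y * y ∈ cg K e := hey ▸ conj_mem_cg (mul_mem F.hyK F.hyK)
  rcases F.hK.eq_of_central (mul_mem F.hyK F.hyK) (two_of_mem F.hP (mul_mem F.hyP F.hyP))
    (fun k hk => commutator_mem_core (F.compK het) F.hK.comp (fun h => he (cg_eq_iff.mp h)) hmem hk)
    with h | h
  · exact absurd h F.hy4
  · exact h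

/-- An element inverted by `t` gives an involution moving `K` and multiplying `y` by `z`. -/
theorem Frame.inverted (F : Frame J K P z t y) (hy2 : y * y ∈ normalizer (J : Set G)) {g : G}
    (hgJ : g ∈ J) (hgP : g ∈ P) (hg2 : g ^ 2 = z) (htg : t * g * t = g⁻¹) :
    y * y = t ∧ ((y⁻¹ * g * y)⁻¹ * g) * ((y⁻¹ * g * y)⁻¹ * g) = 1 ∧
      Commute ((y⁻¹ * g * y)⁻¹ * g) t ∧ (y⁻¹ * g * y)⁻¹ * g ∉ normalizer (K : Set G) ∧
      ((y⁻¹ * g * y)⁻¹ * g)⁻¹ * y * ((y⁻¹ * g * y)⁻¹ * g) = y * z := by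
  set g1 := y⁻¹ * g * y with hg1
  set g2 := (y * y)⁻¹ * g * (y * y) with hg2'
  set e := g1⁻¹ * g with he
  have hg1P : g1 ∈ P := mul_mem (mul_mem (inv_mem F.hyP) hgP) F.hyP
  have hg2P : g2 ∈ P := mul_mem (mul_mem (inv_mem (mul_mem F.hyP F.hyP)) hgP) (mul_mem F.hyP F.hyP)
  have hg1J : g1 ∈ cg J y := conj_mem_cg hgJ
  have hg2J : g2 ∈ J := mem_normalizer_conj hgJ hy2
  have h12 : Commute g2 g1 :=
    comm_of_ne F.hP F.hJ.comp (F.compJ F.hyP) F.conj_ne.symm hg2J hg2P hg1J hg1P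
  have h01 : Commute g g1 :=
    comm_of_ne F.hP F.hJ.comp (F.compJ F.hyP) F.conj_ne.symm hgJ hgP hg1J hg1P
  have hzy : Commute z y := (comm_of_mem F.hPC F.hyP).symm
  have hgg : g * g = z := by rw [← pow_two, hg2]
  have hg11 : g1 * g1 = z := by
    calc g1 * g1 = y⁻¹ * (g * g) * y := by rw [hg1]; group
      _ = z := by rw [hgg, mul_assoc, hzy.eq]; group
  have htt : t * t = 1 := F.hK.sq
  have hi : g1⁻¹ = g1 * z := by
    apply inv_eq_of_mul_eq_one_right
    rw [← mul_assoc, hg11, F.hJ.sq]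
  have hee : e * e = 1 := by
    calc e * e = g1⁻¹ * (g * g1⁻¹) * g := by rw [he]; group
      _ = g1⁻¹ * (g1⁻¹ * g) * g := by rw [h01.inv_right.eq]
      _ = (g1 * g1)⁻¹ * (g * g) := by group
      _ = 1 := by rw [hg11, hgg, inv_mul_cancel]
  have htg1 : t * g1 * t = g1⁻¹ := by
    calc t * g1 * t = (t * y⁻¹) * g * (y * t) := by rw [hg1]; group
      _ = y⁻¹ * (t * g * t) * y := by rw [F.ty.inv_right.eq, ← F.ty.eq]; group
      _ = g1⁻¹ := by rw [htg, hg1]; group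
  have het : Commute e t := by
    have h1 : t * e * t = e⁻¹ := by
      have ht' : t⁻¹ = t := inv_eq_of_mul_eq_one_right htt
      have h3 : (t * g1 * t)⁻¹ = t * g1⁻¹ * t := by
        rw [mul_inv_rev, mul_inv_rev, ht', ← mul_assoc]
      calc t * e * t = t * g1⁻¹ * (t * t) * (g * t) := by rw [htt, he]; group
        _ = (t * g1 * t)⁻¹ * (t * g * t) := by rw [h3]; group
        _ = g1 * g⁻¹ := by rw [htg1, htg, inv_inv]
        _ = e⁻¹ := by rw [he, mul_inv_rev, inv_inv, h01.inv_left.eq]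
    have he' : e⁻¹ = e := inv_eq_of_mul_eq_one_right hee
    rw [he'] at h1
    calc e * t = (t * e * t) * t := by rw [h1]
      _ = t * e := by rw [mul_assoc, htt, mul_one]
  set c := y⁻¹ * (e⁻¹ * y * e) with hc
  have hc' : c = g2 * z * g := by
    calc c = (y⁻¹ * g⁻¹ * y) * g2 * g1⁻¹ * g := by rw [hc, he, hg1, hg2']; group
      _ = g1⁻¹ * g2 * g1⁻¹ * g := by rw [show y⁻¹ * g⁻¹ * y = g1⁻¹ by rw [hg1]; group]
      _ = g2 * (g1 * g1)⁻¹ * g := by rw [← h12.inv_right.eq]; group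
      _ = g2 * z * g := by rw [hg11, F.hJ.inv_eq]
  have hcJ : c ∈ J := hc' ▸ mul_mem (mul_mem hg2J F.hJ.mem) hgJ
  have hcP : c ∈ P := hc' ▸ mul_mem (mul_mem hg2P F.hzP) hgP
  have hne1 : c ≠ 1 := by
    intro h
    rw [hc'] at h
    have hgg2 : g2 = g := by
      calc g2 = (g2 * z * g) * (g⁻¹ * z⁻¹) := by group
        _ = g⁻¹ * z⁻¹ := by rw [h, one_mul]
        _ = g⁻¹ * (g * g) := by rw [F.hJ.inv_eq, hgg]
        _ = g := by group
    have hc2 : Commute g (y * y) := by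
      calc g * (y * y) = (y * y) * g2 := by rw [hg2']; group
        _ = (y * y) * g := by rw [hgg2]
    obtain ⟨k, hk⟩ := F.exists_t
    have htg' : Commute t g := hk ▸ (hc2.symm.pow_left k)
    rw [htg'.eq, mul_assoc, htt, mul_one] at htg
    exact F.hJ.z_ne_one (hgg ▸ mul_eq_one_iff_eq_inv.mpr htg)
  have hmove : e ∉ normalizer (K : Set G) := by
    intro heK
    have hcK : c ∈ K := mul_mem (inv_mem F.hyK) (mem_normalizer_conj F.hyK heK)
    have hzK : z ∈ K := by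
      by_cases h2 : c * c = 1
      · exact ((F.hJ.sq_eq_one hcJ h2).resolve_left hne1) ▸ hcK
      · obtain ⟨k, hk⟩ := F.hJ.exists_pow hcJ (two_of_mem F.hP hcP) h2
        exact hk ▸ pow_mem (pow_mem hcK k) 2
    exact F.hzt (F.hK.uniq z hzK F.hJ.ord)
  have hcy : Commute c y := by
    have h := F.commute_conj (mul_mem (inv_mem hg1P) hgP) het hmove
    exact ((Commute.refl y).inv_right.mul_right h).symm
  have hcg : c ∈ cg J y := by
    rw [mem_cg]
    have e2 : y * c * y⁻¹ = c := by rw [← hcy.eq]; group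
    rw [e2]; exact hcJ
  have hcz : c = z := (F.eq_of_two F.hyP F.conj_ne hcJ hcP hcg).resolve_left hne1
  have hye : e⁻¹ * y * e = y * z := by rw [← hcz, hc]; group
  refine ⟨F.sq_eq het hmove ?_, hee, het, hmove, hye⟩
  calc e⁻¹ * (y * y) * e = (e⁻¹ * y * e) * (e⁻¹ * y * e) := by group
    _ = y * (z * y) * z := by rw [hye]; group
    _ = y * y * (z * z) := by rw [hzy.eq]; group
    _ = y * y := by rw [F.hJ.sq, mul_one]

/-- An element fixed by `t` either gives `t` or moves `K`. -/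
theorem Frame.fixed (F : Frame J K P z t y) (_hy2 : y * y ∈ normalizer (J : Set G)) {g : G}
    (hgJ : g ∈ J) (hgP : g ∈ P) (hg2 : g ^ 2 = z) (htg : Commute g t) :
    t = (y⁻¹ * g * y)⁻¹ * g ∨ (g ∉ normalizer (K : Set G) ∧
      Commute ((y⁻¹ * g * y)⁻¹ * g) y ∧ g⁻¹ * y * g = y * ((y⁻¹ * g * y)⁻¹ * g) ∧ y * y = t) := by
  set g1 := y⁻¹ * g * y with hg1
  set c := g1⁻¹ * g with hc
  have hg1P : g1 ∈ P := mul_mem (mul_mem (inv_mem F.hyP) hgP) F.hyP
  have hg1J : g1 ∈ cg J y := conj_mem_cg hgJ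
  have h01 : Commute g g1 :=
    comm_of_ne F.hP F.hJ.comp (F.compJ F.hyP) F.conj_ne.symm hgJ hgP hg1J hg1P
  have hzy : Commute z y := (comm_of_mem F.hPC F.hyP).symm
  have hgg : g * g = z := by rw [← pow_two, hg2]
  have hg11 : g1 * g1 = z := by
    calc g1 * g1 = y⁻¹ * (g * g) * y := by rw [hg1]; group
      _ = z := by rw [hgg, mul_assoc, hzy.eq]; group
  have hye : g⁻¹ * y * g = y * c := by rw [hc, hg1]; group
  by_cases hgK : g ∈ normalizer (K : Set G)
  · left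
    have hcK : c ∈ K := by
      have : y⁻¹ * (g⁻¹ * y * g) ∈ K := mul_mem (inv_mem F.hyK) (mem_normalizer_conj F.hyK hgK)
      rwa [hye, inv_mul_cancel_left] at this
    have hcc : c * c = 1 := by
      calc c * c = g1⁻¹ * (g * g1⁻¹) * g := by rw [hc]; group
        _ = g1⁻¹ * (g1⁻¹ * g) * g := by rw [h01.inv_right.eq]
        _ = (g1 * g1)⁻¹ * (g * g) := by group
        _ = 1 := by rw [hg11, hgg, inv_mul_cancel]
    refine ((F.hK.sq_eq_one hcK hcc).resolve_left fun h1 => ?_).symm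
    have hgg1 : g = g1 := (inv_mul_eq_one.mp h1).symm
    rcases F.eq_of_two F.hyP F.conj_ne hgJ hgP (hgg1 ▸ hg1J) with h | h
    · exact F.hJ.z_ne_one (by rw [← hgg, h, one_mul])
    · exact F.hJ.z_ne_one (by rw [← hgg, h, F.hJ.sq])
  · right
    have hcy : Commute c y := by
      have h := F.commute_conj hgP htg hgK
      have hc2 : c = y⁻¹ * (g⁻¹ * y * g) := by rw [hye, inv_mul_cancel_left]
      rw [hc2]
      exact ((Commute.refl y).inv_right.mul_right h).symm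
    refine ⟨hgK, hcy, hye, F.sq_eq htg hgK ?_⟩
    -- `c` commutes with `y`, hence `g` with `y²`
    set g2 := y⁻¹ * g1 * y with hg2'
    have h2 : g2⁻¹ * g1 = g1⁻¹ * g := by
      calc g2⁻¹ * g1 = y⁻¹ * c * y := by rw [hg2', hc, hg1]; group
        _ = c := by rw [mul_assoc, hcy.eq]; group
    have hi : g1⁻¹ = g1 * z := by
      apply inv_eq_of_mul_eq_one_right
      rw [← mul_assoc, hg11, F.hJ.sq]
    have hgz : g⁻¹ = g * z := by
      apply inv_eq_of_mul_eq_one_right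
      rw [← mul_assoc, hgg, F.hJ.sq]
    have hzg1 : Commute z g1 := (comm_of_mem F.hPC hg1P).symm
    have h3 : g2⁻¹ = g⁻¹ := by
      calc g2⁻¹ = g1⁻¹ * (g * g1⁻¹) := by rw [← mul_assoc, ← h2]; group
        _ = g1⁻¹ * (g1⁻¹ * g) := by rw [h01.inv_right.eq]
        _ = (g1 * g1)⁻¹ * g := by group
        _ = g⁻¹ := by rw [hg11, F.hJ.inv_eq, hgz, (comm_of_mem F.hPC hgP).eq]
    have h4 : g2 = g := inv_injective h3
    calc g⁻¹ * (y * y) * g = g⁻¹ * (y * y) * g2 := by rw [h4]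
      _ = y * y := by rw [hg2', hg1]; group

/-- Elements of `C(t)` centralizing `K` modulo the core multiply. -/
theorem centralizes_mul {x x' : G} (hx : x ∈ Cz t)
    (h : ∀ k ∈ K, x * k * x⁻¹ * k⁻¹ ∈ Oz t) (h' : ∀ k ∈ K, x' * k * x'⁻¹ * k⁻¹ ∈ Oz t) :
    ∀ k ∈ K, x * x' * k * (x * x')⁻¹ * k⁻¹ ∈ Oz t := by
  intro k hk
  have h1 := (mem_normalizer_iff.mp (Tech.le_normalizer_coreOf (p := 2) (Cz t) hx) _).mp
    (h' k hk)
  have e : x * x' * k * (x * x')⁻¹ * k⁻¹ =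
      (x * (x' * k * x'⁻¹ * k⁻¹) * x⁻¹) * (x * k * x⁻¹ * k⁻¹) := by group
  rw [e]
  exact mul_mem h1 (h k hk)

/-- A product over four distinct conjugates of `K`. -/
theorem Frame.four (F : Frame J K P z t y) {A B C cA cB cC s : G}
    (hy : y * y = t) (hA : Commute A t) (hB : Commute B t) (hC : Commute C t)
    (nA : A ∉ normalizer (K : Set G)) (nB : B ∉ normalizer (K : Set G))
    (nC : C ∉ normalizer (K : Set G))
    (eA : A⁻¹ * y * A = y * cA) (eB : B⁻¹ * y * B = y * cB) (eC : C⁻¹ * y * C = y * cC)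
    (yA : Commute cA y) (yB : Commute cB y) (_yC : Commute cC y) (hs : cA * cB * cC = s) :
    ∀ k ∈ K, y⁻¹ * s * k * (y⁻¹ * s)⁻¹ * k⁻¹ ∈ Oz t := by
  have hcen : ∀ X : G, Commute X t → X ∉ normalizer (K : Set G) →
      X⁻¹ * y * X ∈ Cz t ∧ ∀ k ∈ K, (X⁻¹ * y * X) * k * (X⁻¹ * y * X)⁻¹ * k⁻¹ ∈ Oz t :=
    fun X hX nX => ⟨(F.compK hX).1 (conj_mem_cg F.hyK), fun k hk =>
      commutator_mem_core (F.compK hX) F.hK.comp (fun h => nX (cg_eq_iff.mp h))
        (conj_mem_cg F.hyK) hk⟩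
  obtain ⟨mA, dA⟩ := hcen A hA nA
  obtain ⟨mB, dB⟩ := hcen B hB nB
  obtain ⟨-, dC⟩ := hcen C hC nC
  have e : y⁻¹ * s = (A⁻¹ * y * A) * (B⁻¹ * y * B) * (C⁻¹ * y * C) := by
    have hy4 : y * y * (y * y) = 1 := by rw [hy, F.hK.sq]
    have e1 : y⁻¹ = y * (y * y) := by
      apply inv_eq_of_mul_eq_one_right
      rw [← mul_assoc, hy4]
    calc y⁻¹ * s = y * (y * (y * cA)) * (cB * cC) := by rw [← hs, e1]; group
      _ = y * (y * (cA * y)) * (cB * cC) := by rw [yA.eq]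
      _ = y * (y * cA) * (y * cB) * cC := by group
      _ = y * (cA * y) * (y * cB) * cC := by rw [yA.eq]
      _ = y * cA * y * (y * cB) * cC := by group
      _ = y * cA * y * (cB * y) * cC := by rw [yB.eq]
      _ = (y * cA) * (y * cB) * (y * cC) := by group
      _ = _ := by rw [eA, eB, eC]
  rw [e]
  exact centralizes_mul (mul_mem mA mB) (centralizes_mul mA dA dB) dC

end Cfsg.Agent.Intrinsic
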