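import Cfsg.Agent.Intrinsic.Setup
import Cfsg.Agent.Intrinsic.Layer

/-!
`t` cannot act on the pair of components swapped by `y` as an element of order four.
-/

set_option autoImplicit false
set_option linter.unusedSectionVars false

open Cfsg Subgroup

namespace Cfsg.Agent.Intrinsic

variable {G : Type*} [Group G] [Finite G]

open Classical in
/-- The image of `x` modulo the core of `C(z)` (`1` outside `C(z)`). -/
noncomputable def br (z x : G) : Cz z ⧸ pPrimeCore 2 (Cz z) :=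
  if h : x ∈ Cz z then QuotientGroup.mk' _ ⟨x, h⟩ else 1

theorem br_mul {z x x' : G} (hx : x ∈ Cz z) (hx' : x' ∈ Cz z) :
    br z (x * x') = br z x * br z x' := by
  rw [br, br, br, dif_pos hx, dif_pos hx', dif_pos (mul_mem hx hx'), ← map_mul]
  rfl

theorem br_inv {z x : G} (hx : x ∈ Cz z) : br z x⁻¹ = (br z x)⁻¹ := by
  rw [br, br, dif_pos hx, dif_pos (inv_mem hx), ← map_inv]
  rfl

theorem br_one (z : G) : br z (1 : G) = 1 := by
  rw [br, dif_pos (one_mem _)]; exact map_one _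

theorem br_eq_one {z x : G} (hx : x ∈ Cz z) : br z x = 1 ↔ x ∈ Oz z := by
  rw [br, dif_pos hx]; exact Tech.mk_eq_one_iff (p := 2) hx

theorem br_eq {z x x' : G} (hx : x ∈ Cz z) (hx' : x' ∈ Cz z) :
    br z x = br z x' ↔ x⁻¹ * x' ∈ Oz z := by
  rw [← br_eq_one (mul_mem (inv_mem hx) hx'), br_mul (inv_mem hx) hx', br_inv hx, inv_mul_eq_one]

theorem br_conj {z x w : G} (hx : x ∈ Cz z) (hw : w ∈ Cz z) :
    br z (w⁻¹ * x * w) = (br z w)⁻¹ * br z x * br z w := by
  rw [br_mul (mul_mem (inv_mem hw) hx) hw, br_mul (inv_mem hw) hx, br_inv hw]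

theorem br_commute {z : G} {L M : Subgroup G} (hL : IsPComponentOf 2 L (Cz z))
    (hM : IsPComponentOf 2 M (Cz z)) (hne : L ≠ M) {u v : G} (hu : u ∈ L) (hv : v ∈ M) :
    Commute (br z u) (br z v) := by
  have hu' := hL.1 hu
  have hv' := hM.1 hv
  change _ = _
  rw [← br_mul hu' hv', ← br_mul hv' hu', br_eq (mul_mem hu' hv') (mul_mem hv' hu')]
  have h := commutator_mem_core hM hL hne.symm (inv_mem hv) (inv_mem hu)
  change _ ∈ Tech.coreOf 2 (Cz z)
  simpa [mul_assoc] using h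

theorem mem_normalizer_of_cg {K : Subgroup G} {u g : G} (h : u ∈ normalizer (cg K g : Set G)) :
    g * u * g⁻¹ ∈ normalizer (K : Set G) := by
  rw [← cg_eq_iff] at h ⊢
  rw [cg_cg] at h
  have := congrArg (fun S => cg S g⁻¹) h
  simpa [cg_cg, cg_one, mul_assoc] using this

theorem exists_conj_of_involutions {z x t : G} (_hx : x ∈ Cz z) (hxx : x * x = 1) (htt : t * t = 1)
    (h : t * x ∈ Oz z) : ∃ o ∈ Oz z, o⁻¹ * x * o = t := by
  have hodd : Odd (orderOf (t * x)) := Nat.not_even_iff_odd.mp fun he =>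
    absurd ((even_iff_two_dvd.mp he).trans ((orderOf_mk _ h).symm ▸ _root_.orderOf_dvd_natCard
      (⟨t * x, h⟩ : Oz z))) fun hd =>
      Nat.prime_two.ne_one (Nat.eq_one_of_dvd_coprimes (Tech.coreOf_coprime (p := 2) (Cz z)) hd dvd_rfl)
  obtain ⟨k, hk⟩ := hodd
  refine ⟨(t * x) ^ k, pow_mem h k, ?_⟩
  have hx' : x⁻¹ = x := inv_eq_of_mul_eq_one_right hxx
  have ht' : t⁻¹ = t := inv_eq_of_mul_eq_one_right htt
  have hinv : (t * x)⁻¹ = x * t := by rw [mul_inv_rev, hx', ht']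
  have hs : SemiconjBy x ((t * x) ^ k) ((x * t) ^ k) :=
    (show SemiconjBy x (t * x) (x * t) from (mul_assoc x t x).symm).pow_right k
  have h2 : (x * t) ^ (2 * k) = t * x := by
    have h1 : (x * t) ^ (2 * k + 1) = 1 := by
      rw [← hinv, inv_pow, ← hk, pow_orderOf_eq_one, inv_one]
    rw [pow_succ] at h1
    rw [eq_inv_of_mul_eq_one_left h1, mul_inv_rev, hx', ht']
  rw [← inv_pow, hinv, mul_assoc, hs.eq, ← mul_assoc, ← pow_add, ← two_mul, h2, mul_assoc, hxx,
    mul_one]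

/-- An element of `K` in `C(z)` is not congruent to `z`. -/
theorem not_congr {J K : Subgroup G} {z t d : G} (hJ : Comp J z) (hK : Comp K t) (hzt : z ≠ t)
    (hdK : d ∈ K) (hd : d ∈ Cz z) (h : br z d = br z z) : False := by
  classical
  set m := ordCompl[2] (orderOf d) with hm
  have hpos : orderOf d ≠ 0 := (orderOf_pos d).ne'
  have hodd : Odd m := Nat.not_even_iff_odd.mp fun he =>
    Nat.not_dvd_ordCompl Nat.prime_two hpos (even_iff_two_dvd.mp he)
  set v := d ^ m with hv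
  have hvC : v ∈ Cz z := pow_mem hd m
  have hv2 : IsPGroup 2 (zpowers v) := by
    refine IsPGroup.of_card_dvd_pow (n := (orderOf d).factorization 2) ?_
    rw [Nat.card_zpowers, orderOf_dvd_iff_pow_eq_one, hv, ← pow_mul, hm, mul_comm,
      Nat.ordProj_mul_ordCompl_eq_self, pow_orderOf_eq_one]
  have hzC : z ∈ Cz z := hJ.le hJ.mem
  have hbz : br z z * br z z = 1 := by rw [← br_mul hzC hzC, hJ.sq, br_one]
  have hpow : ∀ n : ℕ, br z (d ^ n) = br z d ^ n := fun n => by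
    induction n with
    | zero => simp [br_one]
    | succ n ih => rw [pow_succ, br_mul (pow_mem hd n) hd, ih, pow_succ]
  have hbv : br z v = br z z := by
    obtain ⟨r, hr⟩ := hodd
    rw [hv, hpow, h, hr, pow_succ, pow_mul, pow_two, hbz, one_pow, one_mul]
  have hvv : v * v = 1 := by
    refine eq_one_of_core (x := z) (two_of_mem hv2 (mul_mem (mem_zpowers v) (mem_zpowers v))) ?_
    rw [← br_eq_one (mul_mem hvC hvC), br_mul hvC hvC, hbv, hbz]
  have hvz : v⁻¹ * z ∈ Oz z := (br_eq hvC hzC).mp hbv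
  have hz2 : IsPGroup 2 (zpowers z) :=
    IsPGroup.of_card (n := 1) (by rw [Nat.card_zpowers, hJ.ord, pow_one])
  have hzN : zpowers z ≤ normalizer (zpowers v : Set G) := by
    refine le_trans (zpowers_le.mpr ?_) (centralizer_le_normalizer _)
    rw [zpowers_eq_closure, centralizer_closure, mem_centralizer_singleton_iff]
    exact (mem_Cz.mp hvC).symm
  have heq : v = z := inv_mul_eq_one.mp (eq_one_of_core (two_of_mem
    (hz2.to_sup_of_normal_right' hv2 hzN)
    (mul_mem (inv_mem (mem_sup_right (mem_zpowers v))) (mem_sup_left (mem_zpowers z)))) hvz)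
  exact hzt (hK.uniq z (heq ▸ pow_mem hdK m) hJ.ord)

theorem inner_false {J K : Subgroup G} {z t y a s : G} (hJ : Comp J z) (hK : Comp K t)
    (hcl : ClassFour J z) (hzt : z ≠ t) (hyK : y ∈ K) (hy : y * y = t) (hyz : Commute y z)
    (hyJ : y ∉ normalizer (J : Set G)) (ha : a ∈ J) (ha2 : a ^ 2 = z) (hs : s = 1 ∨ s = z)
    (ht : t = a * (y⁻¹ * a * y) * s) : False := by
  set a1 := y⁻¹ * a * y with ha1
  have haa : a * a = z := by rw [← pow_two, ha2]
  have hyC : y ∈ Cz z := mem_Cz.mpr hyz.eq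
  have haC : a ∈ Cz z := hJ.le ha
  have ha1C : a1 ∈ Cz z := mul_mem (mul_mem (inv_mem hyC) haC) hyC
  have hzC : z ∈ Cz z := hJ.le hJ.mem
  have hsC : s ∈ Cz z := hs.elim (fun h => h ▸ one_mem _) (fun h => h ▸ hzC)
  have hscomm : ∀ x ∈ Cz z, Commute s x := fun x hx =>
    hs.elim (fun h => h ▸ Commute.one_left x) (fun h => h ▸ (mem_Cz.mp hx).symm)
  have hss : s * s = 1 := hs.elim (fun h => by rw [h, one_mul]) (fun h => by rw [h, hJ.sq])
  have hzy : Commute z y := hyz.symm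
  have ha11 : a1 * a1 = z := by
    calc a1 * a1 = y⁻¹ * (a * a) * y := by rw [ha1]; group
      _ = z := by rw [haa, mul_assoc, hzy.eq]; group
  have hinv : ∀ x : G, x * x = z → x⁻¹ = x * z := fun x hx => by
    apply inv_eq_of_mul_eq_one_right
    rw [← mul_assoc, hx, hJ.sq]
  have htt : t * t = 1 := hK.sq
  have hca : Commute a a1 := by
    have h4 : a * a1 * (a * a1) = 1 := by
      calc a * a1 * (a * a1) = a * a1 * (s * s) * (a * a1) := by rw [hss, mul_one]
        _ = a * a1 * s * (s * (a * a1)) := by group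
        _ = a * a1 * s * (a * a1 * s) := by rw [(hscomm _ (mul_mem haC ha1C)).eq]
        _ = 1 := by rw [← ht, htt]
    have h5 : a1 * a = a⁻¹ * a1⁻¹ := by
      calc a1 * a = a⁻¹ * (a * a1 * (a * a1)) * a1⁻¹ := by group
        _ = a⁻¹ * a1⁻¹ := by rw [h4, mul_one]
    change a * a1 = a1 * a
    rw [h5, hinv a haa, hinv a1 ha11]
    calc a * a1 = a * a1 * (z * z) := by rw [hJ.sq, mul_one]
      _ = a * (a1 * z) * z := by group
      _ = a * (z * a1) * z := by rw [mem_Cz.mp ha1C]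
      _ = a * z * (a1 * z) := by group
  have hat : Commute a t := ht ▸ (((Commute.refl a).mul_right hca).mul_right (hscomm a haC).symm)
  have hyt : Commute y t := hy ▸ (Commute.refl y).mul_right (Commute.refl y)
  have hya1 : y⁻¹ * a1 * y = a := by
    calc y⁻¹ * a1 * y = (y * y)⁻¹ * a * (y * y) := by rw [ha1]; group
      _ = a := by rw [hy, mul_assoc, hat.eq]; group
  have hne : cg J y ≠ J := fun h => hyJ (cg_eq_iff.mp h)
  have hJ1 : IsPComponentOf 2 (cg J y) (Cz z) := by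
    have h := isPComponentOf_cg hJ.comp y
    have e : y⁻¹ * z * y = z := by rw [mul_assoc, hzy.eq]; group
    rwa [e] at h
  have ha1J : a1 ∈ cg J y := conj_mem_cg ha
  have htN : t ∈ normalizer (J : Set G) := by
    rw [ht]
    exact mul_mem (mul_mem (le_normalizer ha) (normalizes_of_same hJ.comp hJ1 ha1J))
      (hs.elim (fun h => h ▸ one_mem _) (fun h => h ▸ le_normalizer hJ.mem))
  -- a common 2-group
  obtain ⟨P, hP, haP, hyP, hPC, hncJ⟩ : ∃ P : Subgroup G, IsPGroup 2 P ∧ a ∈ P ∧ y ∈ P ∧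
      P ≤ Cz z ∧ ¬ IsCyclic ↥(J ⊓ P) := by
    have h2 : ∀ x : G, x * x = z → IsPGroup 2 (zpowers x) := fun x hx => by
      refine IsPGroup.of_card_dvd_pow (n := 2) ?_
      rw [Nat.card_zpowers, orderOf_dvd_iff_pow_eq_one]
      calc x ^ (2 ^ 2) = (x ^ 2) ^ 2 := by rw [← pow_mul]; norm_num
        _ = 1 := by rw [pow_two x, hx, pow_two, hJ.sq]
    have hy2 : IsPGroup 2 (zpowers y) := by
      refine IsPGroup.of_card_dvd_pow (n := 2) ?_
      rw [Nat.card_zpowers, orderOf_dvd_iff_pow_eq_one]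
      calc y ^ (2 ^ 2) = (y ^ 2) ^ 2 := by rw [← pow_mul]; norm_num
        _ = 1 := by rw [pow_two y, hy, pow_two, htt]
    have hN : zpowers a1 ≤ normalizer (zpowers a : Set G) := by
      refine le_trans (zpowers_le.mpr ?_) (centralizer_le_normalizer _)
      rw [zpowers_eq_closure, centralizer_closure, mem_centralizer_singleton_iff]
      exact hca.symm.eq
    have hA := (h2 a1 ha11).to_sup_of_normal_right' (h2 a haa) hN
    have hyA : zpowers y ≤ normalizer ((zpowers a1 ⊔ zpowers a : Subgroup G) : Set G) := by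
      rw [zpowers_le, ← cg_eq_iff]
      change Subgroup.map _ _ = _
      have f1 : (MulAut.conj y⁻¹).toMonoidHom a = a1 := by simp [ha1]
      have f2 : (MulAut.conj y⁻¹).toMonoidHom a1 = a :=
        (show (MulAut.conj y⁻¹).toMonoidHom a1 = y⁻¹ * a1 * y by simp).trans hya1
      rw [Subgroup.map_sup, MonoidHom.map_zpowers, MonoidHom.map_zpowers, f1, f2, sup_comm]
    obtain ⟨P, hP, hSP, hPC, hnc⟩ := exists_two_group z (hy2.to_sup_of_normal_right' hA hyA)
      (sup_le (zpowers_le.mpr hyC) (sup_le (zpowers_le.mpr ha1C) (zpowers_le.mpr haC)))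
    exact ⟨P, hP, hSP (mem_sup_right (mem_sup_right (mem_zpowers a))),
      hSP (mem_sup_left (mem_zpowers y)), hPC, hnc J hJ.comp⟩
  have hzP : z ∈ P := haa ▸ mul_mem haP haP
  obtain ⟨b, hb, hb2, hba⟩ := exists_inverting (hP.to_le inf_le_right)
    (Subgroup.mem_inf.mpr ⟨hJ.mem, hzP⟩) hJ.ord (fun v hv hv2 => hJ.uniq v hv.1 hv2) hncJ
    (Subgroup.mem_inf.mpr ⟨ha, haP⟩) ha2
  have hbb : b * b = z := by rw [← pow_two, hb2]
  have hbC : b ∈ Cz z := hJ.le hb.1
  have hab : a * b * a⁻¹ = b⁻¹ := by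
    calc a * b * a⁻¹ = b * (b⁻¹ * a * b) * a⁻¹ := by group
      _ = b * (a * a)⁻¹ := by rw [hba]; group
      _ = b⁻¹ := by rw [haa, hJ.inv_eq, hinv b hbb]
  have hy4 : y * y ≠ 1 := hy ▸ hK.z_ne_one
  have F : Frame J K P z t y := ⟨hJ, hK, hzt, hP, hPC, hncJ, hzP, hyP, hyK, hy4, hyJ⟩
  have htb : t * b * t = b⁻¹ := by
    have hsb := hscomm b hbC
    have hsaa := hscomm (a * a1) (mul_mem haC ha1C)
    have hba1 : Commute a1 b :=
      (comm_of_ne hP hJ.comp hJ1 hne.symm hb.1 hb.2 ha1J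
        (mul_mem (mul_mem (inv_mem hyP) haP) hyP)).symm
    calc t * b * t = a * a1 * (s * b) * (a * a1) * s := by rw [ht]; group
      _ = a * a1 * (b * s) * (a * a1) * s := by rw [hsb.eq]
      _ = a * a1 * b * (s * (a * a1)) * s := by group
      _ = a * a1 * b * ((a * a1) * s) * s := by rw [hsaa.eq]
      _ = a * (a1 * b) * (a * a1) * (s * s) := by group
      _ = a * (b * a1) * (a * a1) := by rw [hba1.eq, hss, mul_one]
      _ = a * b * (a1 * a) * a1 := by group
      _ = a * b * (a * a1) * a1 := by rw [← hca.eq]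
      _ = (a * b * a⁻¹) * ((a * a) * (a1 * a1)) := by group
      _ = b⁻¹ := by rw [hab, haa, ha11, hJ.sq, mul_one]
  obtain ⟨-, hee, het, hmove, hye⟩ := F.inverted (hy ▸ htN) hb.1 hb.2 hb2 htb
  set b1 := y⁻¹ * b * y with hb1
  have hb1C : b1 ∈ Cz z := mul_mem (mul_mem (inv_mem hyC) hbC) hyC
  have hb11 : b1 * b1 = z := by
    calc b1 * b1 = y⁻¹ * (b * b) * y := by rw [hb1]; group
      _ = z := by rw [hbb, mul_assoc, hzy.eq]; group
  have hbb1 : Commute b b1 := comm_of_ne hP hJ.comp hJ1 hne.symm hb.1 hb.2 (conj_mem_cg hb.1)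
    (mul_mem (mul_mem (inv_mem hyP) hb.2) hyP)
  set e0 := b1⁻¹ * b with he0
  have he0C : e0 ∈ Cz z := mul_mem (inv_mem hb1C) hbC
  -- `z` normalizes `K`
  have htC : t ∈ Cz z := hy ▸ mul_mem hyC hyC
  have hzK : z ∈ normalizer (K : Set G) := by
    by_contra hzK
    have hzt' : Commute z t := (mem_Cz.mp htC).symm
    have hz1 : z⁻¹ * (y * y) * z = y * y := by
      rw [hy, mul_assoc, ← hzt'.eq]; group
    have hmem : y ∈ cg K z := by
      have := conj_mem_cg (g := z) hyK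
      rwa [mul_assoc, ← hzy.eq, inv_mul_cancel_left] at this
    rcases hK.eq_of_central hyK (two_of_mem hP hyP) (fun k hk => commutator_mem_core
      (F.compK hzt') hK.comp (fun h => hzK (cg_eq_iff.mp h)) hmem hk) with h | h
    · exact hy4 (by rw [h, one_mul])
    · exact hy4 (by rw [h, htt])
  set e := e0 * (z * s) with he
  have hzs : Commute (z * s) e0 :=
    (show Commute z e0 from (mem_Cz.mp he0C).symm).mul_left (hscomm e0 he0C)
  have hzs2 : z * s * (z * s) = 1 := by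
    calc z * s * (z * s) = z * (s * z) * s := by group
      _ = z * (z * s) * s := by rw [(hscomm z hzC).eq]
      _ = (z * z) * (s * s) := by group
      _ = 1 := by rw [hJ.sq, hss, mul_one]
  have he2 : e * e = 1 := by
    calc e * e = e0 * ((z * s) * e0) * (z * s) := by rw [he]; group
      _ = e0 * (e0 * (z * s)) * (z * s) := by rw [hzs.eq]
      _ = (e0 * e0) * ((z * s) * (z * s)) := by group
      _ = 1 := by rw [hee, hzs2, mul_one]
  have hzst : Commute (z * s) t :=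
    (show Commute z t from (mem_Cz.mp htC).symm).mul_left (hscomm t htC)
  have het' : Commute e t := het.mul_left hzst
  have hzsK : z * s ∈ normalizer (K : Set G) :=
    mul_mem hzK (hs.elim (fun h => h ▸ one_mem _) (fun h => h ▸ hzK))
  have hmove' : e ∉ normalizer (K : Set G) := fun h => hmove (by
    have := mul_mem h (inv_mem hzsK)
    rwa [he, mul_inv_cancel_right] at this)
  have hey : e⁻¹ * y * e = y * z := by
    calc e⁻¹ * y * e = (z * s)⁻¹ * (e0⁻¹ * y * e0) * (z * s) := by rw [he]; group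
      _ = (z * s)⁻¹ * ((y * z) * (z * s)) := by rw [hye, mul_assoc]
      _ = (z * s)⁻¹ * ((z * s) * (y * z)) := by
          rw [((show Commute z (y * z) from (mem_Cz.mp (mul_mem hyC hzC)).symm).mul_left
            (hscomm _ (mul_mem hyC hzC))).eq]
      _ = y * z := by group
  have he' : e⁻¹ = e := inv_eq_of_mul_eq_one_right he2
  have hey' : e * y * e = y * z := by rwa [he'] at hey
  -- the diagonal element `t z`
  have hD : y * (e * y * e) ∈ pLayerOf 2 (Cz t ⊓ Cz e) :=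
    diag_mem_pLayerOf hK.comp he2 het'.symm.eq hmove' hyK (two_of_mem hP hyP)
      (by rw [hey']; exact ((Commute.refl y).mul_right hyz).eq)
  have htz : y * (e * y * e) = t * z := by rw [hey', ← mul_assoc, hy]
  rw [htz, inf_comm] at hD
  have hD' : t * z ∈ pLayerOf 2 (Cz e) := pLayerOf_inf_le htt het'.eq hD
  -- conjugating `e` to `t`
  obtain ⟨w, hw, u, hu, hwu⟩ := hcl b hb.1 a ha hb2 ha2
  obtain ⟨α, hα, hwα, htα⟩ : ∃ α, (α = a ∨ α = a⁻¹) ∧ w⁻¹ * b * w = α * u ∧
      t = α * (y⁻¹ * α * y) * s := by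
    rcases hwu with h | h
    · exact ⟨a, Or.inl rfl, h, ht⟩
    · refine ⟨a⁻¹, Or.inr rfl, h, ?_⟩
      have e1 : y⁻¹ * a⁻¹ * y = a1⁻¹ := by rw [ha1]; group
      have e2 : a⁻¹ * a1⁻¹ = a * a1 := by
        rw [hinv a haa, hinv a1 ha11, mul_assoc, ← mul_assoc z,
          ← mem_Cz.mp ha1C, mul_assoc a1, hJ.sq, mul_one]
      rw [e1, e2, ← ht]
  set A := br z a
  set Y := br z y
  set W := br z w
  have hαJ : α ∈ J := hα.elim (fun h => h ▸ ha) (fun h => h ▸ inv_mem ha)
  have hαC := hJ.le hαJ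
  have hwC : w ∈ Cz z := hJ.le hw
  set w1 := y⁻¹ * w * y with hw1
  have hw1C : w1 ∈ Cz z := mul_mem (mul_mem (inv_mem hyC) hwC) hyC
  set h0 := w * w1 with hh0
  have hh0C : h0 ∈ Cz z := mul_mem hwC hw1C
  have hkey : ∀ j ∈ J, br z (h0⁻¹ * (j * (y⁻¹ * j * y) * s) * h0) =
      br z (w⁻¹ * j * w) * ((br z y)⁻¹ * br z (w⁻¹ * j * w) * br z y) * br z s := by
    intro j hj
    have hjC := hJ.le hj
    have hj1C : y⁻¹ * j * y ∈ Cz z := mul_mem (mul_mem (inv_mem hyC) hjC) hyC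
    have c1 : Commute (br z w) (br z (y⁻¹ * j * y)) :=
      br_commute hJ.comp hJ1 hne.symm hw (conj_mem_cg hj)
    have c2 : Commute (br z (w⁻¹ * j * w)) (br z w1) :=
      br_commute hJ.comp hJ1 hne.symm (mul_mem (mul_mem (inv_mem hw) hj) hw) (conj_mem_cg hw)
    have c3 : ∀ x ∈ Cz z, Commute (br z s) (br z x) := fun x hx => by
      change _ = _
      rw [← br_mul hsC hx, ← br_mul hx hsC, (hscomm x hx).eq]
    have e1 : (br z y)⁻¹ * br z (w⁻¹ * j * w) * br z y =
        (br z w1)⁻¹ * br z (y⁻¹ * j * y) * br z w1 := by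
      rw [← br_conj (mul_mem (mul_mem (inv_mem hwC) hjC) hwC) hyC, ← br_conj hj1C hw1C, hw1]
      congr 1; group
    rw [e1, br_conj (mul_mem (mul_mem hjC hj1C) hsC) hh0C, br_mul (mul_mem hjC hj1C) hsC,
      br_mul hjC hj1C, hh0, br_mul hwC hw1C, br_conj hjC hwC]
    rw [br_conj hjC hwC] at c2
    set X := br z j
    set X1 := br z (y⁻¹ * j * y)
    set W1 := br z w1
    set S := br z s
    calc (W * W1)⁻¹ * (X * X1 * S) * (W * W1)
        = W1⁻¹ * W⁻¹ * X * (X1 * (S * W)) * W1 := by group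
      _ = W1⁻¹ * W⁻¹ * X * (X1 * (W * S)) * W1 := by rw [(c3 w hwC).eq]
      _ = W1⁻¹ * W⁻¹ * X * (X1 * W) * (S * W1) := by group
      _ = W1⁻¹ * W⁻¹ * X * (W * X1) * (W1 * S) := by rw [c1.eq, (c3 w1 hw1C).eq]
      _ = W1⁻¹ * (W⁻¹ * X * W) * (X1 * W1) * S := by group
      _ = (W⁻¹ * X * W) * W1⁻¹ * (X1 * W1) * S := by rw [c2.inv_right.eq]
      _ = (W⁻¹ * X * W) * (W1⁻¹ * X1 * W1) * S := by group
      _ = _ := rfl
  have heb : e = b * (y⁻¹ * b * y) * s := by
    calc e = (b1⁻¹ * b) * (z * s) := by rw [he, he0]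
      _ = (b1 * (z * b)) * (z * s) := by rw [hinv b1 hb11, mul_assoc b1]
      _ = (b1 * b) * (z * z) * s := by rw [← mem_Cz.mp hbC]; group
      _ = b * b1 * s := by rw [hJ.sq, mul_one, ← hbb1.eq]
  have heC : e ∈ Cz z := mul_mem he0C (mul_mem hzC hsC)
  have hxt : br z (h0⁻¹ * e * h0) = br z t := by
    have hbu : br z (w⁻¹ * b * w) = br z α := by
      rw [hwα, br_mul hαC (Components.centralizerPPrimeCore_le z hu),
        (br_eq_one (Components.centralizerPPrimeCore_le z hu)).mpr hu, mul_one]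
    rw [heb, hkey b hb.1, hbu, htα, br_mul (mul_mem hαC (mul_mem (mul_mem (inv_mem hyC) hαC) hyC)) hsC,
      br_mul hαC (mul_mem (mul_mem (inv_mem hyC) hαC) hyC), br_conj hαC hyC]
  have hxC : h0⁻¹ * e * h0 ∈ Cz z := mul_mem (mul_mem (inv_mem hh0C) heC) hh0C
  have hxx : h0⁻¹ * e * h0 * (h0⁻¹ * e * h0) = 1 := by
    calc h0⁻¹ * e * h0 * (h0⁻¹ * e * h0) = h0⁻¹ * (e * e) * h0 := by group
      _ = 1 := by rw [he2, mul_one, inv_mul_cancel]
  obtain ⟨o, ho, hoe⟩ := exists_conj_of_involutions hxC hxx htt (by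
    have h := (br_eq htC hxC).mp hxt.symm
    rwa [inv_eq_of_mul_eq_one_right htt] at h)
  have hoC := Components.centralizerPPrimeCore_le z ho
  set h := h0 * o with hh
  have hhC : h ∈ Cz z := mul_mem hh0C hoC
  have heh : h⁻¹ * e * h = t := by rw [← hoe, hh]; group
  -- `T = t ^ h` normalizes `K`
  set T := h⁻¹ * t * h with hT
  have hK1 : IsPComponentOf 2 (cg K h⁻¹) (Cz e) := by
    have := isPComponentOf_cg hK.comp h⁻¹
    rwa [show (h⁻¹)⁻¹ * t * h⁻¹ = e by rw [← heh]; group] at this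
  have hTK : T ∈ normalizer (K : Set G) := by
    have h1 := mem_normalizer_of_cg (mem_normalizer_of_mem_pLayerOf hK1 hD')
    have h2 : h⁻¹ * (t * z) * h⁻¹⁻¹ * z = T := by
      calc h⁻¹ * (t * z) * h⁻¹⁻¹ * z = h⁻¹ * t * (z * h) * z := by group
        _ = h⁻¹ * t * (h * z) * z := by rw [← mem_Cz.mp hhC]
        _ = T * (z * z) := by rw [hT]; group
        _ = T := by rw [hJ.sq, mul_one]
    exact h2 ▸ mul_mem h1 hzK
  have hTC : T ∈ Cz z := mul_mem (mul_mem (inv_mem hhC) htC) hhC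
  refine not_congr hJ hK hzt (mul_mem (inv_mem hyK) (mem_normalizer_conj hyK hTK))
    (mul_mem (inv_mem hyC) (mul_mem (mul_mem (inv_mem hTC) hyC) hTC)) ?_
  set c := w⁻¹ * a * w with hc
  have hcJ : c ∈ J := mul_mem (mul_mem (inv_mem hw) ha) hw
  have hcC := hJ.le hcJ
  set C := br z c
  set B := br z b
  set S := br z s
  set Z := br z z with hZ
  have hTbr : br z T = C * (Y⁻¹ * C * Y) * S := by
    have e1 : T = o⁻¹ * (h0⁻¹ * t * h0) * o := by rw [hT, hh]; group
    rw [e1, br_conj (mul_mem (mul_mem (inv_mem hh0C) htC) hh0C) hoC, (br_eq_one hoC).mpr ho,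
      inv_one, one_mul, mul_one, ht]
    exact hkey a ha
  have hZc : ∀ x ∈ Cz z, Commute Z (br z x) := fun x hx => by
    change _ = _
    rw [hZ, ← br_mul hzC hx, ← br_mul hx hzC, mem_Cz.mp hx]
  have hSc : ∀ x ∈ Cz z, Commute S (br z x) := fun x hx => by
    change _ = _
    rw [← br_mul hsC hx, ← br_mul hx hsC, (hscomm x hx).eq]
  have hAA : A * A = Z := by rw [← br_mul haC haC, haa]
  have hCC : C * C = Z := by
    rw [← br_mul hcC hcC, hZ, hc,
      show w⁻¹ * a * w * (w⁻¹ * a * w) = w⁻¹ * (a * a) * w by group, haa, br_conj hzC hwC,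
      mul_assoc, (hZc w hwC).eq, inv_mul_cancel_left]
  have hSS : S * S = 1 := by rw [← br_mul hsC hsC, hss, br_one]
  have hAC : A * C * A⁻¹ = C⁻¹ := by
    have hwb : br z α = W⁻¹ * B * W := by
      rw [← br_conj hbC hwC, hwα, br_mul hαC (Components.centralizerPPrimeCore_le z hu),
        (br_eq_one (Components.centralizerPPrimeCore_le z hu)).mpr hu, mul_one]
    have hAB : A * B * A⁻¹ = B⁻¹ := by
      rw [← br_inv haC, ← br_mul haC hbC, ← br_mul (mul_mem haC hbC) (inv_mem haC), hab, br_inv hbC]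
    have hCa : C * br z α * C⁻¹ = (br z α)⁻¹ := by
      have hCW : C = W⁻¹ * A * W := br_conj haC hwC
      rw [hwb, hCW]
      calc (W⁻¹ * A * W) * (W⁻¹ * B * W) * (W⁻¹ * A * W)⁻¹ = W⁻¹ * (A * B * A⁻¹) * W := by group
        _ = _ := by rw [hAB]; group
    have hαα : br z α * br z α = Z := by
      rcases hα with rfl | rfl
      · exact hAA
      · rw [← br_mul hαC hαC, show a⁻¹ * a⁻¹ = (a * a)⁻¹ by group, haa, hJ.inv_eq]
    have h1 : br z α * C * (br z α)⁻¹ = C⁻¹ := by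
      have h2 : br z α * C * br z α = C := by
        calc br z α * C * br z α = br z α * (C * br z α * C⁻¹) * C := by group
          _ = C := by rw [hCa, mul_inv_cancel, one_mul]
      calc br z α * C * (br z α)⁻¹ = (br z α * C * br z α) * (br z α * br z α)⁻¹ := by group
        _ = C * (C * C)⁻¹ := by rw [h2, hαα, hCC]
        _ = C⁻¹ := by group
    rcases hα with rfl | rfl
    · exact h1
    · rw [br_inv haC, inv_inv] at h1
      calc A * C * A⁻¹ = (A * C⁻¹ * A⁻¹)⁻¹ := by group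
        _ = (A * (A⁻¹ * C * A) * A⁻¹)⁻¹ := by rw [h1]
        _ = C⁻¹ := by group
  have hCA1 : Commute C (br z a1) := br_commute hJ.comp hJ1 hne.symm hcJ ha1J
  have hY : Y * Y = A * br z a1 * S := by
    rw [← br_mul hyC hyC, hy, ht, br_mul (mul_mem haC ha1C) hsC, br_mul haC ha1C]
  have hA1 : br z a1 = Y⁻¹ * A * Y := br_conj haC hyC
  have hC2 : Y⁻¹ * (Y⁻¹ * C * Y) * Y = C⁻¹ := by
    have hinvT : (Y * Y)⁻¹ = Y * Y := by
      rw [← br_mul hyC hyC, hy, ← br_inv htC, inv_eq_of_mul_eq_one_right htt]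
    calc Y⁻¹ * (Y⁻¹ * C * Y) * Y = (Y * Y)⁻¹ * C * (Y * Y) := by group
      _ = (Y * Y) * C * (Y * Y)⁻¹ := by rw [hinvT]
      _ = A * br z a1 * (S * C * S⁻¹) * (br z a1)⁻¹ * A⁻¹ := by rw [hY]; group
      _ = A * br z a1 * C * (br z a1)⁻¹ * A⁻¹ := by rw [(hSc c hcC).eq, mul_inv_cancel_right]
      _ = A * (C * br z a1) * (br z a1)⁻¹ * A⁻¹ := by rw [hCA1.eq]; group
      _ = C⁻¹ := by rw [← hAC]; group
  have hC1 : Commute C (Y⁻¹ * C * Y) := by
    rw [← br_conj hcC hyC]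
    exact br_commute hJ.comp hJ1 hne.symm hcJ (conj_mem_cg hcJ)
  have hd : br z (y⁻¹ * (T⁻¹ * y * T)) = (Y⁻¹ * br z T * Y)⁻¹ * br z T := by
    rw [br_mul (inv_mem hyC) (mul_mem (mul_mem (inv_mem hTC) hyC) hTC), br_conj hyC hTC, br_inv hyC]
    group
    rfl
  rw [hd, hTbr]
  set C1 := Y⁻¹ * C * Y with hC1'
  have hYS : Commute S Y := hSc y hyC
  have hS' : S⁻¹ = S := inv_eq_of_mul_eq_one_right hSS
  calc (Y⁻¹ * (C * C1 * S) * Y)⁻¹ * (C * C1 * S)
      = (C1 * (Y⁻¹ * C1 * (S * Y)))⁻¹ * (C * C1 * S) := by rw [hC1']; group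
    _ = (C1 * (Y⁻¹ * C1 * (Y * S)))⁻¹ * (C * C1 * S) := by rw [hYS.eq]
    _ = S⁻¹ * (Y⁻¹ * C1 * Y)⁻¹ * (C1⁻¹ * (C * C1)) * S := by group
    _ = S⁻¹ * C * C * S := by rw [hC2, hC1.eq]; group
    _ = Z := by rw [mul_assoc S⁻¹, hCC, mul_assoc, (hZc s hsC).eq, inv_mul_cancel_left]

/-- No element of `J` of order four is inverted by `t`. -/
theorem Frame.no_inverted {J K P : Subgroup G} {z t y : G} (F : Frame J K P z t y)
    (hclK : ClassFour K t) (hy2 : y * y ∈ normalizer (J : Set G)) {g : G}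
    (hgJ : g ∈ J) (hgP : g ∈ P) (hg2 : g ^ 2 = z) (htg : t * g * t = g⁻¹) : False := by
  obtain ⟨hyy, -, het, hmove, hye⟩ := F.inverted hy2 hgJ hgP hg2 htg
  set e := (y⁻¹ * g * y)⁻¹ * g with he
  have htt := F.hK.sq
  have hy' : g⁻¹ * y * g = y * e := by rw [he]; group
  have ht' : g⁻¹ * t * g = t * z := by
    calc g⁻¹ * t * g = (t * g * t) * t * g := by rw [htg]
      _ = t * g * (t * t) * g := by group
      _ = t * z := by rw [htt, mul_one, mul_assoc, ← pow_two, hg2]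
  refine inner_false F.hK (F.hK.cg' g) hclK ?_ (conj_mem_cg F.hyK) ?_ ?_ ?_ F.hyK ?_ (Or.inl rfl) ?_
  · rw [ht']
    intro h
    exact F.hJ.z_ne_one (mul_eq_left.mp h.symm)
  · rw [← hyy]; group
  · rw [hy']; exact F.ty.symm.mul_left het
  · rw [hy']
    intro h
    apply hmove
    have := mul_mem (inv_mem (le_normalizer F.hyK)) h
    rwa [inv_mul_cancel_left] at this
  · rw [pow_two, hyy]
  · rw [ht', hy', mul_one]
    calc t * z = y * (y * z) := by rw [← mul_assoc, hyy]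
      _ = y * (e⁻¹ * y * e) := by rw [hye]
      _ = y * ((y * e)⁻¹ * y * (y * e)) := by group

end Cfsg.Agent.Intrinsic
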